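import Cfsg.Agent.Lib.Geometric.SympFour.HalfRoots

/-!
A group with a frame contains all isometries or permutes the frame up to signs.
-/

set_option autoImplicit false
set_option linter.unusedSectionVars false

namespace CfsgLib.Geometric.SympFour

open scoped Matrix
open CfsgLib.PauliFour

variable {F : Type*} [Field F]

local notation "M₄" => Matrix (Fin 2 ⊕ Fin 2) (Fin 2 ⊕ Fin 2) F
local notation "GL₄" => GL (Fin 2 ⊕ Fin 2) F

/-- A vector halfway between two given frame vectors. -/
def Sw (x : Fin 5 → F) (u v : Fin 5) : Prop :=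
  u ≠ v ∧ 2 * x u * x u = 1 ∧ 2 * x v * x v = 1 ∧ ∀ k, k ≠ u → k ≠ v → x k = 0

theorem Sw.symm {x : Fin 5 → F} {u v : Fin 5} (h : Sw x u v) : Sw x v u :=
  ⟨h.1.symm, h.2.2.1, h.2.1, fun k a b => h.2.2.2 k b a⟩

theorem Sw.ne_zero {x : Fin 5 → F} {u v : Fin 5} (h : Sw x u v) : x u ≠ 0 := fun e => by
  have := h.2.1; rw [e] at this; simp at this

theorem Sw.dot_eq_two {x : Fin 5 → F} {u v : Fin 5} (h : Sw x u v) (z : Fin 5 → F) :
    dot x z = x u * z u + x v * z v := by
  unfold dot
  refine Finset.sum_eq_add u v h.1 (fun k _ hk => ?_) (by simp) (by simp)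
  rw [h.2.2.2 k hk.1 hk.2, zero_mul]

theorem Sw.same {x x' : Fin 5 → F} {u v v' : Fin 5} (h : Sw x u v) (h' : Sw x' u v')
    (ho : dot x x' = 0) : v' = v := by
  by_contra hne
  rw [h.dot_eq_two, h'.2.2.2 v h.1.symm (Ne.symm hne), mul_zero, add_zero] at ho
  exact mul_ne_zero h.ne_zero h'.ne_zero ho

theorem Sw.pair_zero {x x' z : Fin 5 → F} {u v : Fin 5} (h : Sw x u v) (h' : Sw x' u v)
    (ho : dot x x' = 0) (hz : dot x z = 0) (hz' : dot x' z = 0) : z u = 0 := by
  rw [h.dot_eq_two] at ho hz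
  rw [h'.dot_eq_two] at hz'
  have two : (2 : F) ≠ 0 := fun e => by
    have := h.2.1; rw [e] at this; simp at this
  have e : x u * x v + x' u * x' v = 0 := by
    refine (mul_eq_zero.1 (show (2 * (x' u * x v)) * (x u * x v + x' u * x' v) = 0 from ?_)).resolve_left
      (mul_ne_zero two (mul_ne_zero h'.ne_zero h.symm.ne_zero))
    linear_combination (x u * x' u) * h.2.2.1 + x v * x' v * h'.2.1 + ho
  refine mul_left_cancel₀ two ?_
  linear_combination 2 * x u * hz + 2 * x' u * hz' - z u * h.2.1 - z u * h'.2.1 - 2 * z v * e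

theorem FS.shape {x : Fin 5 → F} (h : FS x) (hn : dot x x = 1) {u : Fin 5} (hu : x u ≠ 0) :
    (x u * x u = 1 ∧ ∀ k, k ≠ u → x k = 0) ∨ ∃ v, Sw x u v := by
  rcases h with ⟨j, hj⟩ | ⟨i, j, hij, hi, hj, h0⟩
  · have : u = j := by_contra fun e => hu (hj u e)
    subst this
    refine Or.inl ⟨?_, hj⟩
    rw [← hn, dot, Finset.sum_eq_single u (fun k _ hk => by rw [hj k hk, zero_mul]) (by simp)]
  · have hs : Sw x i j := ⟨hij, hi, hj, h0⟩
    rcases Classical.em (u = i) with rfl | hui
    · exact Or.inr ⟨j, hs⟩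
    · have : u = j := by_contra fun e => hu (h0 u hui e)
      subst this
      exact Or.inr ⟨i, hs.symm⟩

theorem FS.two_nonzero {x : Fin 5 → F} (h : FS x) {u v t : Fin 5} (huv : u ≠ v) (hut : u ≠ t)
    (hvt : v ≠ t) (hu : x u ≠ 0) (hv : x v ≠ 0) (ht : x t ≠ 0) : False := by
  rcases h with ⟨j, hj⟩ | ⟨i, j, -, -, -, h0⟩
  · have a : u = j := by_contra fun e => hu (hj u e)
    have b : v = j := by_contra fun e => hv (hj v e)
    exact huv (a.trans b.symm)
  · have key : ∀ k, x k ≠ 0 → k = i ∨ k = j := fun k hk => by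
      by_contra hc
      push Not at hc
      exact hk (h0 k hc.1 hc.2)
    rcases key u hu with a | a <;> rcases key v hv with b | b <;> rcases key t ht with c | c <;>
      first | exact huv (a.trans b.symm) | exact hut (a.trans c.symm) | exact hvt (b.trans c.symm)

theorem FS.of_comp {x : Fin 5 → F} (σ : Equiv.Perm (Fin 5)) (h : FS (x ∘ σ)) : FS x := by
  rcases h with ⟨j, hj⟩ | ⟨i, j, hij, hi, hj, h0⟩
  · exact Or.inl ⟨σ j, fun k hk => by
      simpa using hj (σ.symm k) (fun e => hk (by rw [← e, Equiv.apply_symm_apply]))⟩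
  · exact Or.inr ⟨σ i, σ j, fun e => hij (σ.injective e), hi, hj, fun k hk hk' => by
      simpa using h0 (σ.symm k) (fun e => hk (by rw [← e, Equiv.apply_symm_apply]))
        (fun e => hk' (by rw [← e, Equiv.apply_symm_apply]))⟩

theorem exists_third (b c : Fin 5) : ∃ a, a ≠ b ∧ a ≠ c := by
  revert b c; decide

theorem exists_rest {a b c : Fin 5} (hab : a ≠ b) (hac : a ≠ c) (hbc : b ≠ c) :
    ∃ d f, d ≠ f ∧ d ≠ a ∧ d ≠ b ∧ d ≠ c ∧ f ≠ a ∧ f ≠ b ∧ f ≠ c := by
  revert a b c; decide

theorem exists_fifth (a b c d : Fin 5) : ∃ k, k ≠ a ∧ k ≠ b ∧ k ≠ c ∧ k ≠ d := by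
  revert a b c d; decide

variable {Γ : Fin 5 → Matrix (Fin 2 ⊕ Fin 2) (Fin 2 ⊕ Fin 2) F}
  {M : Subgroup (GL (Fin 2 ⊕ Fin 2) F)}

namespace Frame5

variable (S : Frame5 Γ M) [Fintype F] {p : ℕ} (hp : p.Prime) (hcard : Fintype.card F = p)
  (hbig : ¬ Cfsg.spGL 2 F ≤ M)
include S hp hcard hbig

theorem orth_FS {x : Fin 5 → F} (hx : X Γ M x) {z : Fin 5} (hz : x z = 0) : FS x := by
  obtain ⟨P, E⟩ := S.exists_eig
  obtain ⟨σ, hσ, hσz⟩ := exists_even z
  rcases S.type_of_orth E hp hcard (S.X_perm hx σ hσ) (by simp [hσz, hz]) with h | ⟨w, hw, hw'⟩ | h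
  · exact absurd h hbig
  · exact absurd (S.big_of_half hp hcard hw hw') hbig
  · exact FS.of_comp σ h

theorem sq_ne_two (h3 : (3 : F) = 0) (z : F) : z * z ≠ 2 := by
  intro e
  haveI : Fact p.Prime := ⟨hp⟩
  haveI : CharP F p := charP_of_card_eq_prime (by rw [hcard])
  have hd : p ∣ 3 := (CharP.cast_eq_zero_iff F p 3).1 (by exact_mod_cast h3)
  have hp3 : p = 3 := (Nat.prime_dvd_prime_iff_eq hp Nat.prime_three).1 hd
  have hz : z ≠ 0 := fun h => S.two (by rw [← e, h, zero_mul])
  have := FiniteField.pow_card_sub_one_eq_one z hz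
  rw [hcard, hp3, sq] at this
  exact one_ne_zero (α := F) (by linear_combination this - e)

/-- A vector without zero coordinates has all squares equal. -/
theorem sq_eq_sq {x : Fin 5 → F} (hx : X Γ M x) (hnz : ∀ k, x k ≠ 0) (i j : Fin 5) :
    x i * x i = x j * x j := by
  have h2 := S.two
  rcases eq_or_ne i j with rfl | hij
  · rfl
  obtain ⟨k, l, m, hkl, hkm, hlm, hk, hl, hm⟩ : ∃ k l m : Fin 5, k ≠ l ∧ k ≠ m ∧ l ≠ m ∧
      (k ≠ i ∧ k ≠ j) ∧ (l ≠ i ∧ l ≠ j) ∧ (m ≠ i ∧ m ≠ j) := by
    revert i j; decide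
  have hy := S.X_single i
  have he := S.X_single j
  have hPy : ∀ (a : Fin 5 → F) n, n ≠ i → n ≠ j →
      pP (Pi.single i 1) (Pi.single j 1) a n = 0 ∧ pU (Pi.single i 1) (Pi.single j 1) a n = a n :=
    fun a n hi hj => by simp [pP, pU, dot_single, hi, hj]
  have hUi : ∀ a : Fin 5 → F, pU (Pi.single i 1) (Pi.single j 1) a i = 0 := fun a => by
    simp [pP, pU, dot_single, hij]
  have hPi : ∀ a : Fin 5 → F, pP (Pi.single i 1) (Pi.single j 1) a i = a i ∧
      pP (Pi.single i 1) (Pi.single j 1) a j = a j := fun a => by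
    simp [pP, dot_single, hij, hij.symm]
  rcases S.three_cases hx hy he (by simp [dot_single, hij.symm]) (by simpa [dot_single] using hnz i)
    with ⟨c, hc, hcx, hcU⟩ | ⟨d, hd, hdP, hdU⟩ | ⟨d, hd, had, hdP, hdU⟩
  · have hc0 : ∀ n, n ≠ i → n ≠ j → c n = 0 := fun n a b => by
      have e := congrFun hcU n
      rw [(hPy c n a b).2] at e; simpa using e
    have e2 : c i * x i + c j * x j = 0 := by
      rw [← hcx, dot, Finset.sum_eq_add i j hij (fun n _ hn => by rw [hc0 n hn.1 hn.2, zero_mul])
        (by simp) (by simp)]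
    have hn := S.X_norm hc
    rw [dot, Finset.sum_eq_add i j hij (fun n _ hn => by rw [hc0 n hn.1 hn.2, zero_mul])
        (by simp) (by simp)] at hn
    have hci : c i ≠ 0 := fun e => by
      rw [e, zero_mul, zero_add, mul_eq_zero] at e2
      rw [e, e2.resolve_right (hnz j)] at hn; simp at hn
    rcases (S.orth_FS hp hcard hbig hc (hc0 k hk.1 hk.2)).shape (S.X_norm hc) hci with ⟨-, h0⟩ | ⟨v, hv⟩
    · rw [h0 j hij.symm, zero_mul, add_zero, mul_eq_zero] at e2
      exact absurd (e2.resolve_left hci) (hnz i)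
    · have hvj : v = j := by
        by_contra hne
        exact hv.symm.ne_zero (hc0 v hv.1.symm hne)
      subst hvj
      linear_combination (x i * c i - x v * c v) * 2 * e2 - (x i * x i) * hv.2.1 +
        (x v * x v) * hv.2.2.1
  · exfalso
    have di : d i = 0 := by rw [← (hPi d).1, hdP]; rfl
    have e : ∀ n, n ≠ i → n ≠ j → d n ≠ 0 := fun n a b h0 => by
      have e' := congrFun hdU n
      rw [Pi.smul_apply, smul_eq_mul, h0, mul_zero, (hPy x n a b).2] at e'
      exact hnz n e'
    exact (S.orth_FS hp hcard hbig hd di).two_nonzero hkl hkm hlm (e k hk.1 hk.2) (e l hl.1 hl.2)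
      (e m hm.1 hm.2)
  · exfalso
    set ν := d i / x i with hν
    set μ := d k / x k with hμ
    have di : d i = ν * x i := by rw [hν, div_mul_cancel₀ _ (hnz i)]
    have dk : d k = μ * x k := by rw [hμ, div_mul_cancel₀ _ (hnz k)]
    have dj : d j = ν * x j := by
      have e := congrFun hdP j
      simp only [Pi.smul_apply, smul_eq_mul, (hPi _).2, dot_comm (Pi.single i (1 : F)), dot_single,
        mul_one] at e
      rw [hν, div_mul_eq_mul_div, eq_div_iff (hnz i)]
      linear_combination e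
    have dn : ∀ n, n ≠ i → n ≠ j → d n = μ * x n := fun n a b => by
      have e := congrFun (hdU (Pi.single k 1) (by simp [dot_single, hk.1.symm])
        (by simp [dot_single, hk.2.symm])) n
      simp only [Pi.smul_apply, smul_eq_mul, (hPy _ n a b).2, dot_comm (Pi.single k (1 : F)),
        dot_single, mul_one] at e
      rw [hμ, div_mul_eq_mul_div, eq_div_iff (hnz k)]
      linear_combination e
    set A := x i * x i + x j * x j
    have hall : ∀ n, d n = μ * x n + (ν - μ) * pP (Pi.single i 1) (Pi.single j 1) x n := by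
      intro n
      by_cases a : n = i
      · subst a; rw [(hPi x).1, di]; ring
      by_cases b : n = j
      · subst b; rw [(hPi x).2, dj]; ring
      rw [(hPy x n a b).1, dn n a b]; ring
    have hd' : d = μ • x + (ν - μ) • pP (Pi.single i 1) (Pi.single j 1) x := funext fun n => by
      simpa using hall n
    have nx := S.X_norm hx
    have hxP : dot x (pP (Pi.single i 1) (Pi.single j 1) x) = A := by
      simp [pP, dot_add_right, dot_smul_right, dot_single, A]
    have hPP : dot (pP (Pi.single i 1) (Pi.single j 1) x) (pP (Pi.single i 1) (Pi.single j 1) x) = A := by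
      simp [pP, dot_add_left, dot_add_right, dot_smul_left, dot_smul_right, dot_single, hij, hij.symm, A]
    have q1 : μ + (ν - μ) * A = 0 := by
      rw [← had, hd', dot_add_right, dot_smul_right, dot_smul_right, hxP, nx]; ring
    have q2 : μ * μ + (ν * ν - μ * μ) * A = 1 := by
      rw [← S.X_norm hd, hd']
      simp only [dot_add_left, dot_add_right, dot_smul_left, dot_smul_right, hxP, hPP, nx,
        dot_comm (pP (Pi.single i 1) (Pi.single j 1) x) x]
      ring
    have mn : μ * ν = -1 := by linear_combination (μ + ν) * q1 - q2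
    have κ0 : 1 + μ * μ ≠ 0 := fun e => by
      have hμν : μ = ν := by
        have hμ0 : μ ≠ 0 := fun e0 => by rw [e0] at mn; simp at mn
        exact mul_left_cancel₀ hμ0 (by linear_combination e - mn)
      have hμ1 : μ = 0 := by linear_combination q1 + A * hμν
      rw [hμ1] at mn; simp at mn
    -- images of frame vectors
    have key : ∀ k l m : Fin 5, k ≠ l → k ≠ m → l ≠ m → (k ≠ i ∧ k ≠ j) → (l ≠ i ∧ l ≠ j) →
        (m ≠ i ∧ m ≠ j) → 2 * x l * x l = x k * x k := by
      intro k l m hkl hkm hlm hk hl hm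
      set r := refl x (refl d (Pi.single k 1)) with hr
      have hrX : X Γ M r := S.X_refl (S.X_refl (S.X_single k) hd) hx
      have hdx : dot (Pi.single k 1) x = x k := by rw [dot_comm, dot_single, mul_one]
      have hdd : dot (Pi.single k 1) d = μ * x k := by
        rw [dot_comm, dot_single, mul_one, dn k hk.1 hk.2]
      have hr' : ∀ n, r n = (Pi.single k (1 : F) : Fin 5 → F) n - 2 * x k * x n - 2 * (μ * x k) * d n := by
        intro n
        simp only [hr, refl, dot_sub_left, dot_smul_left, hdx, hdd, dot_comm d x, had, Pi.sub_apply,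
          Pi.smul_apply, smul_eq_mul]
        ring
      have ri : r i = 0 := by
        rw [hr', di, Pi.single_eq_of_ne hk.1.symm]
        linear_combination -2 * x k * x i * mn
      have rn : ∀ n, n ≠ k → n ≠ i → n ≠ j → r n = -2 * (1 + μ * μ) * (x k * x n) := fun n a b c => by
        rw [hr', dn n b c, Pi.single_eq_of_ne a]; ring
      have rl : r l ≠ 0 := by
        rw [rn l hkl.symm hl.1 hl.2]
        exact mul_ne_zero (mul_ne_zero (neg_ne_zero.2 h2) κ0) (mul_ne_zero (hnz k) (hnz l))
      have rm : r m ≠ 0 := by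
        rw [rn m hkm.symm hm.1 hm.2]
        exact mul_ne_zero (mul_ne_zero (neg_ne_zero.2 h2) κ0) (mul_ne_zero (hnz k) (hnz m))
      have hfs := S.orth_FS hp hcard hbig hrX ri
      have rk : r k = 0 := by_contra fun e => hfs.two_nonzero hkl hkm hlm e rl rm
      rcases hfs.shape (S.X_norm hrX) rl with ⟨-, h0⟩ | ⟨v, hv⟩
      · exact absurd (h0 m hlm.symm) rm
      · have q3 := hv.2.1
        rw [rn l hkl.symm hl.1 hl.2] at q3
        rw [hr', dn k hk.1 hk.2, Pi.single_eq_same] at rk
        linear_combination (x k * x k) * q3 + (2 * x l * x l) * (1 + 2 * (1 + μ * μ) * (x k * x k)) * rk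
    have a := key k l m hkl hkm hlm hk hl hm
    have b := key l k m hkl.symm hlm hkm hl hk hm
    have h3 : (3 : F) = 0 := by
      refine (mul_eq_zero.1 (show (3 : F) * (x k * x k) = 0 from ?_)).resolve_right
        (mul_ne_zero (hnz k) (hnz k))
      linear_combination 2 * b + a
    refine S.sq_ne_two hp hcard hbig h3 (x k / x l) ?_
    rw [div_mul_div_comm, div_eq_iff (mul_ne_zero (hnz l) (hnz l))]
    linear_combination -a

/-- Every vector is special or has five equal squares. -/
theorem good {x : Fin 5 → F} (hx : X Γ M x) :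
    FS x ∨ ((∀ k, 5 * x k * x k = 1) ∧ (3 : F) ≠ 0) := by
  by_cases hz : ∃ z, x z = 0
  · obtain ⟨z, hz⟩ := hz
    exact Or.inl (S.orth_FS hp hcard hbig hx hz)
  push Not at hz
  have e := fun k => S.sq_eq_sq hp hcard hbig hx hz k 0
  have hn := S.X_norm hx
  rw [dot_eq] at hn
  have h5 : ∀ k, 5 * x k * x k = 1 := fun k => by
    linear_combination hn + 5 * e k - e 0 - e 1 - e 2 - e 3 - e 4
  refine Or.inr ⟨h5, fun h3 => S.sq_ne_two hp hcard hbig h3 (x 0) ?_⟩
  refine mul_left_cancel₀ S.two ?_
  linear_combination h5 0 - (x 0 * x 0 + 1) * h3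

/-- Two vectors with five equal squares are not orthogonal. -/
theorem all_eq_not_orth {x y : Fin 5 → F} (hx : ∀ k, 5 * x k * x k = 1)
    (hy : ∀ k, 5 * y k * y k = 1) (h3 : (3 : F) ≠ 0) : dot x y ≠ 0 := by
  intro h
  have h5 : (5 : F) ≠ 0 := fun e => by have := hx 0; rw [e] at this; simp at this
  have hs : ∀ k, 5 * x k * y k = 1 ∨ 5 * x k * y k = -1 := fun k =>
    mul_self_eq_one_iff.1 (by linear_combination (5 * y k * y k) * hx k + hy k)
  rw [dot_eq] at h
  have key : 5 * x 0 * y 0 + 5 * x 1 * y 1 + 5 * x 2 * y 2 + 5 * x 3 * y 3 + 5 * x 4 * y 4 = 0 := by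
    linear_combination 5 * h
  rcases hs 0 with a | a <;> rcases hs 1 with b | b <;> rcases hs 2 with c | c <;>
    rcases hs 3 with d | d <;> rcases hs 4 with f | f <;> rw [a, b, c, d, f] at key <;>
    first
    | exact h5 (by linear_combination key) | exact h5 (by linear_combination -key)
    | exact h3 (by linear_combination key) | exact h3 (by linear_combination -key)
    | exact one_ne_zero (α := F) (by linear_combination key)
    | exact one_ne_zero (α := F) (by linear_combination -key)

/-- The group contains all isometries or maps every frame vector to a signed frame vector. -/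
theorem rigid_of_not_big {g : GL (Fin 2 ⊕ Fin 2) F} (hg : g ∈ M) (i : Fin 5) :
    ∃ (j : Fin 5) (σ : F), (σ = 1 ∨ σ = -1) ∧ (g : M₄) * Γ i = σ • (Γ j * (g : M₄)) := by
  classical
  have h2 := S.two
  have hconj : ∀ k, ∃ r, X Γ M r ∧ (g : M₄) * Γ k = V Γ r * (g : M₄) := fun k => by
    obtain ⟨u, hu, hu'⟩ := S.gam k
    have hsq : u * u = 1 := Units.ext (by simp [hu', S.anti.sq])
    have hne : ∀ τ : F, Γ k ≠ τ • 1 := fun τ e => by
      obtain ⟨l, hl⟩ := exists_ne k
      have ea := S.anti.anti l k hl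
      rw [e, Matrix.mul_smul, Matrix.smul_mul, mul_one, one_mul] at ea
      have hτ : τ ≠ 0 := fun h0 => by
        have := S.anti.sq k
        rw [e, h0, zero_smul, zero_mul] at this
        exact zero_ne_one this
      have h0 : (2 * τ) • Γ l = 0 := by linear_combination (norm := module) ea
      have := S.anti.sq l
      rw [(smul_eq_zero.1 h0).resolve_left (mul_ne_zero h2 hτ), zero_mul] at this
      exact zero_ne_one this
    have hback : ∀ τ : F, ((g * u * g⁻¹ : GL (Fin 2 ⊕ Fin 2) F) : M₄) ≠ τ • 1 := fun τ e => hne τ (by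
      have := congrArg (fun z => ((g⁻¹ : GL (Fin 2 ⊕ Fin 2) F) : M₄) * z * (g : M₄)) e
      simp only [Units.val_mul, Matrix.mul_smul, Matrix.smul_mul, mul_one, mul_assoc, Units.inv_mul,
        Units.inv_mul_cancel_left, hu'] at this
      exact this)
    obtain ⟨r, hr, hr', -⟩ := S.X_of_sq (g := g * u * g⁻¹) (mul_mem (mul_mem hg hu) (inv_mem hg))
      (by rw [← Units.val_mul, show g * u * g⁻¹ * (g * u * g⁻¹) = g * (u * u) * g⁻¹ by group, hsq]
          simp) (by simpa using hback 1) (by simpa using hback (-1))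
    refine ⟨r, hr, ?_⟩
    rw [← hr', ← hu', ← Units.val_mul, ← Units.val_mul, inv_mul_cancel_right]
  choose r hrX hr using hconj
  have hrow : ∀ w, (g : M₄) * V Γ w = V Γ (∑ k, w k • r k) * (g : M₄) := fun w => by
    have e : V Γ (∑ k, w k • r k) = ∑ k, w k • V Γ (r k) := by
      simp only [V, Finset.sum_apply, Pi.smul_apply, smul_eq_mul, Finset.sum_smul, Finset.smul_sum,
        smul_smul]
      exact Finset.sum_comm
    rw [e, V]
    simp only [Finset.mul_sum, Finset.sum_mul, Matrix.mul_smul, Matrix.smul_mul, hr]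
  have horth : ∀ k l, k ≠ l → dot (r k) (r l) = 0 := fun k l hkl => by
    refine dot_eq_zero_of_anti S.anti h2 ?_
    have e : (V Γ (r k) * V Γ (r l) + V Γ (r l) * V Γ (r k)) * (g : M₄) = 0 := by
      rw [Matrix.add_mul, mul_assoc, ← hr, ← mul_assoc, ← hr, mul_assoc (V Γ (r l)), ← hr,
        ← mul_assoc (V Γ (r l)), ← hr, mul_assoc, mul_assoc, S.anti.anti k l hkl, Matrix.mul_neg,
        neg_add_cancel]
    have := congrArg (· * ((g⁻¹ : GL (Fin 2 ⊕ Fin 2) F) : M₄)) e
    simp only [mul_assoc, Units.mul_inv, mul_one, zero_mul] at this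
    exact eq_neg_of_add_eq_zero_left this
  have hcol : ∀ u v, ∑ k, r k u * r k v = if u = v then 1 else 0 := by
    let R : Matrix (Fin 5) (Fin 5) F := Matrix.of r
    have h1 : R * Rᵀ = 1 := by
      ext k l
      rw [Matrix.mul_apply, Matrix.one_apply]
      show dot (r k) (r l) = _
      split_ifs with h
      · subst h; exact S.X_norm (hrX k)
      · exact horth k l h
    intro u v
    have h2' : Rᵀ * R = 1 := mul_eq_one_comm.1 h1
    have := congrFun (congrFun h2' u) v
    rw [Matrix.mul_apply, Matrix.one_apply] at this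
    exact this
  have hcol1 : ∀ u, ∑ k, r k u * r k u = 1 := fun u => by simpa using hcol u u
  -- no vector with five equal squares
  have hFS : ∀ k, FS (r k) := by
    intro a
    refine (S.good hp hcard hbig (hrX a)).resolve_right ?_
    rintro ⟨ha, h3⟩
    have h5 : (5 : F) ≠ 0 := fun e => by have := ha 0; rw [e] at this; simp at this
    have hanz : ∀ u, r a u ≠ 0 := fun u e => by have := ha u; rw [e] at this; simp at this
    have hoth : ∀ k, k ≠ a → ∀ u, r k u ≠ 0 → ∃ v, Sw (r k) u v := by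
      intro k hk u hu
      have hf : FS (r k) := (S.good hp hcard hbig (hrX k)).resolve_right fun h =>
        S.all_eq_not_orth hp hcard hbig h.1 ha h3 (horth k a hk)
      refine (hf.shape (S.X_norm (hrX k)) hu).resolve_left ?_
      rintro ⟨-, h0⟩
      have e := horth k a hk
      rw [dot, Finset.sum_eq_single u (fun n _ hn => by rw [h0 n hn, zero_mul]) (by simp)] at e
      exact mul_ne_zero hu (hanz u) e
    by_cases hex : ∃ k, k ≠ a ∧ r k 0 ≠ 0
    · obtain ⟨k, hk, hk0⟩ := hex
      obtain ⟨v, hv⟩ := hoth k hk 0 hk0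
      have honly : ∀ l, l ≠ a → l ≠ k → r l 0 = 0 := fun l hla hlk => by
        by_contra hl
        obtain ⟨v', hv'⟩ := hoth l hla 0 hl
        have := hv.same hv' (horth k l (Ne.symm hlk))
        subst this
        exact hanz 0 (hv.pair_zero hv' (horth k l (Ne.symm hlk)) (horth k a hk) (horth l a hla))
      have e := hcol1 0
      rw [Finset.sum_eq_add a k hk.symm (fun l _ hl => by rw [honly l hl.1 hl.2, zero_mul]) (by simp)
        (by simp)] at e
      exact h3 (by linear_combination -10 * e + 2 * ha 0 + 5 * hv.2.1)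
    · push Not at hex
      have e := hcol1 0
      rw [Finset.sum_eq_single a (fun l _ hl => by rw [hex l hl, zero_mul]) (by simp)] at e
      exact mul_ne_zero h2 h2 (by linear_combination ha 0 - 5 * e)
  -- no vector halfway between two frame vectors
  have hno : ∀ b u v, ¬ Sw (r b) u v := by
    intro b u v hb
    have hmeet : ∀ k, k ≠ b → r k u ≠ 0 → Sw (r k) u v := by
      intro k hk hu
      rcases (hFS k).shape (S.X_norm (hrX k)) hu with ⟨-, h0⟩ | ⟨v', hv'⟩
      · exfalso
        have e := horth k b hk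
        rw [dot, Finset.sum_eq_single u (fun n _ hn => by rw [h0 n hn, zero_mul]) (by simp)] at e
        exact mul_ne_zero hu hb.ne_zero e
      · rwa [← hb.same hv' (horth b k (Ne.symm hk))]
    obtain ⟨c, hcb, hcu⟩ : ∃ c, c ≠ b ∧ r c u ≠ 0 := by
      by_contra hc
      push Not at hc
      have e := hcol1 u
      rw [Finset.sum_eq_single b (fun l _ hl => by rw [hc l hl, zero_mul]) (by simp)] at e
      exact one_ne_zero (α := F) (by linear_combination hb.2.1 - 2 * e)
    have hc := hmeet c hcb hcu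
    have hbc := horth b c hcb.symm
    have hzero : ∀ k, k ≠ b → k ≠ c → r k u = 0 ∧ r k v = 0 := fun k h1 h2 =>
      ⟨hb.pair_zero hc hbc (horth b k (Ne.symm h1)) (horth c k (Ne.symm h2)),
        hb.symm.pair_zero hc.symm hbc (horth b k (Ne.symm h1)) (horth c k (Ne.symm h2))⟩
    obtain ⟨a, hab, hac⟩ := exists_third b c
    obtain ⟨d, f, hdf, hda, hdb, hdc, hfa, hfb, hfc⟩ := exists_rest hab hac hcb.symm
    set σ := Equiv.swap a c * Equiv.swap d f
    have hσ : Equiv.Perm.sign σ = 1 := by
      simp [σ, Equiv.Perm.sign_swap hac, Equiv.Perm.sign_swap hdf]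
    have hσb : σ b = b := by
      simp [σ, Equiv.swap_apply_of_ne_of_ne hdb.symm hfb.symm,
        Equiv.swap_apply_of_ne_of_ne hab.symm hcb.symm]
    have hσa : σ a = c := by
      simp [σ, Equiv.swap_apply_of_ne_of_ne hda.symm hfa.symm, Equiv.swap_apply_left]
    -- the vector mapped to a frame vector
    set w : Fin 5 → F := fun k => r k u
    have hw : X Γ M w := by
      obtain ⟨t, ht, ht'⟩ := S.gam u
      refine ⟨g⁻¹ * t * g, mul_mem (mul_mem (inv_mem hg) ht) hg, ?_⟩
      have e : ∑ k, w k • r k = Pi.single u 1 := by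
        funext n
        simp only [Finset.sum_apply, Pi.smul_apply, smul_eq_mul, w, Pi.single_apply]
        rw [hcol u n]
        exact if_congr eq_comm rfl rfl
      rw [Units.val_mul, Units.val_mul, ht', mul_assoc, ← one_smul F (Γ u), ← V_single u (1 : F),
        ← e, ← hrow, Units.inv_mul_cancel_left]
    obtain ⟨t, ht, ht'⟩ := S.X_perm hw σ hσ
    have hy : X Γ M (∑ k, (w ∘ σ) k • r k) := by
      refine ⟨g * t * g⁻¹, mul_mem (mul_mem hg ht) (inv_mem hg), ?_⟩
      rw [Units.val_mul, Units.val_mul, ht', hrow, mul_assoc, Units.mul_inv, mul_one]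
    set y := ∑ k, (w ∘ σ) k • r k
    have hy' : ∀ n, y n = r b u * r b n + r c u * r a n := fun n => by
      simp only [y, Finset.sum_apply, Pi.smul_apply, smul_eq_mul, Function.comp_apply, w]
      rw [Finset.sum_eq_add b a hab.symm (fun k _ hk => ?_) (by simp) (by simp), hσb, hσa]
      rw [(hzero (σ k) (fun e => hk.1 (σ.injective (e.trans hσb.symm)))
        (fun e => hk.2 (σ.injective (e.trans hσa.symm)))).1, zero_mul]
    obtain ⟨au, av⟩ := hzero a hab hac
    obtain ⟨t, hta⟩ : ∃ t, r a t ≠ 0 := by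
      by_contra h
      push Not at h
      have := S.X_norm (hrX a)
      simp [dot, h] at this
    have htu : t ≠ u := fun e => hta (by rw [e, au])
    have htv : t ≠ v := fun e => hta (by rw [e, av])
    obtain ⟨t', ht''⟩ : ∃ t', ∀ n, n ≠ t → n ≠ t' → r a n = 0 := by
      rcases (hFS a).shape (S.X_norm (hrX a)) hta with ⟨-, h0⟩ | ⟨t', hs⟩
      · exact ⟨t, fun n hn _ => h0 n hn⟩
      · exact ⟨t', hs.2.2.2⟩
    obtain ⟨z, hzu, hzv, hzt, hzt'⟩ := exists_fifth u v t t'
    refine (S.orth_FS hp hcard hbig hy (z := z) ?_).two_nonzero hb.1 htu.symm htv.symm ?_ ?_ ?_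
    · rw [hy', hb.2.2.2 z hzu hzv, ht'' z hzt hzt', mul_zero, mul_zero, add_zero]
    · rw [hy', au, mul_zero, add_zero]; exact mul_ne_zero hb.ne_zero hb.ne_zero
    · rw [hy', av, mul_zero, add_zero]; exact mul_ne_zero hb.ne_zero hb.symm.ne_zero
    · rw [hy', hb.2.2.2 t htu htv, mul_zero, zero_add]; exact mul_ne_zero hcu hta
  -- signed frame vectors
  obtain ⟨j, hj⟩ : ∃ j, r i j ≠ 0 := by
    by_contra h
    push Not at h
    have := S.X_norm (hrX i)
    simp [dot, h] at this
  rcases (hFS i).shape (S.X_norm (hrX i)) hj with ⟨hsq, h0⟩ | ⟨v, hv⟩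
  · refine ⟨j, r i j, mul_self_eq_one_iff.1 hsq, ?_⟩
    rw [hr i, show r i = Pi.single j (r i j) by
      funext n
      rcases eq_or_ne n j with rfl | hn
      · simp
      · rw [h0 n hn, Pi.single_eq_of_ne hn]]
    simp [V_single, Matrix.smul_mul]
  · exact absurd hv (hno i j v)

omit hbig in
/-- The group contains all isometries or permutes the frame up to signs. -/
theorem rigid : Cfsg.spGL 2 F ≤ M ∨ ∀ g ∈ M, ∀ i, ∃ (j : Fin 5) (σ : F),
    (σ = 1 ∨ σ = -1) ∧ (g : M₄) * Γ i = σ • (Γ j * (g : M₄)) := by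
  by_cases h : Cfsg.spGL 2 F ≤ M
  · exact Or.inl h
  · exact Or.inr fun g hg i => S.rigid_of_not_big hp hcard h hg i

end Frame5

end CfsgLib.Geometric.SympFour
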