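import Cfsg.Agent.Lib.Geometric.SympFour.Blocks

/-!
One transvection in a group containing a frame gives every symplectic isometry.
-/

set_option autoImplicit false
set_option linter.unusedSectionVars false

namespace CfsgLib.Geometric.SympFour

open scoped Matrix
open CfsgLib.PauliFour CfsgLib.Geometric

variable {F : Type*} [Field F]

local notation "M₄" => Matrix (Fin 2 ⊕ Fin 2) (Fin 2 ⊕ Fin 2) F
local notation "GL₄" => GL (Fin 2 ⊕ Fin 2) F
local notation "B₄" => Cfsg.sympForm 2 F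

variable {Γ : Fin 5 → Matrix (Fin 2 ⊕ Fin 2) (Fin 2 ⊕ Fin 2) F}
  {M : Subgroup (GL (Fin 2 ⊕ Fin 2) F)} {P : GL (Fin 2 ⊕ Fin 2) F}

theorem exists_nat_cast {p : ℕ} [Fintype F] (hp : p.Prime) (hcard : Fintype.card F = p) (c : F) :
    ∃ n : ℕ, (n : F) = c := by
  haveI : Fact p.Prime := ⟨hp⟩
  haveI : CharP F p := charP_of_card_eq_prime (by rw [hcard])
  have hbij : Function.Bijective (ZMod.castHom (dvd_refl p) F) := by
    rw [Fintype.bijective_iff_injective_and_card, ZMod.card, hcard]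
    exact ⟨RingHom.injective _, rfl⟩
  obtain ⟨z, hz⟩ := hbij.2 c
  exact ⟨z.val, by rw [← hz, ← map_natCast (ZMod.castHom (dvd_refl p) F), ZMod.natCast_zmod_val]⟩

theorem blk_T (E : Eig Γ P) (h2 : (2 : F) ≠ 0) {u : GL₄} (hu : (u : M₄) * Γ 4 = Γ 4 * u)
    (h1 : blk P 1 (u : M₄) = 1) (h0 : blk P 0 (u : M₄) = !![1, 1; 0, 1]) :
    u = Symp.T (isSymplecticForm_sympForm 2 F) ((P : M₄) *ᵥ Pi.single (.inl 0) 1) 1 := by
  have hne : (1 : F) ≠ -1 := fun h => h2 (by linear_combination h)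
  have c := fun i j => E.cross_zero h2 hu i j
  have z1 := c (.inl 0) (.inl 1) (by simpa using hne)
  have z2 := c (.inl 0) (.inr 1) (by simpa using hne)
  have z3 := c (.inr 0) (.inl 1) (by simpa using hne)
  have z4 := c (.inr 0) (.inr 1) (by simpa using hne)
  have z5 := c (.inl 1) (.inl 0) (by simpa using hne.symm)
  have z6 := c (.inl 1) (.inr 0) (by simpa using hne.symm)
  have z7 := c (.inr 1) (.inl 0) (by simpa using hne.symm)
  have z8 := c (.inr 1) (.inr 0) (by simpa using hne.symm)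
  set B := ((P⁻¹ : GL₄) : M₄) * (u : M₄) * (P : M₄) with hB
  have a : ∀ i j, blk P 0 (u : M₄) i j = !![(1 : F), 1; 0, 1] i j := fun i j => by rw [h0]
  have b : ∀ i j, blk P 1 (u : M₄) i j = (1 : Matrix (Fin 2) (Fin 2) F) i j := fun i j => by rw [h1]
  have a1 : B (.inl 0) (.inl 0) = 1 := a 0 0
  have a2 : B (.inl 0) (.inr 0) = 1 := a 0 1
  have a3 : B (.inr 0) (.inl 0) = 0 := a 1 0
  have a4 : B (.inr 0) (.inr 0) = 1 := a 1 1
  have b1 : B (.inl 1) (.inl 1) = 1 := b 0 0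
  have b2 : B (.inl 1) (.inr 1) = 0 := b 0 1
  have b3 : B (.inr 1) (.inl 1) = 0 := b 1 0
  have b4 : B (.inr 1) (.inr 1) = 1 := b 1 1
  refine gl_ext fun x => ?_
  obtain ⟨y, rfl⟩ : ∃ y, x = (P : M₄) *ᵥ y := ⟨((P⁻¹ : GL₄) : M₄) *ᵥ x, by simp [Matrix.mulVec_mulVec]⟩
  rw [Symp.ap_T]
  simp only [ap_def]
  rw [show B₄ ((P : M₄) *ᵥ y) ((P : M₄) *ᵥ Pi.single (.inl 0) 1) = B₄ y (Pi.single (.inl 0) 1) from
    E.mem _ _, one_mul, Matrix.mulVec_mulVec, ← Matrix.mulVec_smul, ← Matrix.mulVec_add,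
    show (u : M₄) * (P : M₄) = (P : M₄) * B by simp [hB, ← mul_assoc], ← Matrix.mulVec_mulVec]
  congr 1
  funext i
  simp only [Matrix.mulVec, dotProduct, Fintype.sum_sum_type, Fin.sum_univ_two, Pi.add_apply,
    Pi.smul_apply, smul_eq_mul, Cfsg.sympForm]
  rcases i with i | i <;> fin_cases i <;>
    simp [a1, a2, a3, a4, b1, b2, b3, b4, z1, z2, z3, z4, z5, z6, z7, z8, Matrix.J,
      Matrix.fromBlocks, Matrix.one_apply]

namespace Frame5

variable (S : Frame5 Γ M) (E : Eig Γ P)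
include S E

/-- One transvection with centre in an eigenspace gives all isometries. -/
theorem big_of_T [Fintype F] {p : ℕ} (hp : p.Prime) (hcard : Fintype.card F = p)
    (hT : Symp.T (isSymplecticForm_sympForm 2 F) ((P : M₄) *ᵥ Pi.single (.inl 0) 1) 1 ∈ M) :
    Cfsg.spGL 2 F ≤ M := by
  set hf := isSymplecticForm_sympForm 2 F
  have hM : M ≤ isom (Cfsg.sympForm 2 F) := S.le
  have bl := hf.bilinear
  let C : Set (Fin 2 ⊕ Fin 2 → F) := {x | ∀ c, Symp.T hf x c ∈ M}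
  set v := (P : M₄) *ᵥ Pi.single (.inl 0) 1 with hv
  have hCv : v ∈ C := fun c => by
    obtain ⟨n, rfl⟩ := exists_nat_cast hp hcard c
    have : ∀ m : ℕ, Symp.T hf v (m : F) = Symp.T hf v 1 ^ m := by
      intro m
      induction m with
      | zero => simp [Symp.T_zero_right]
      | succ m ih => rw [pow_succ, ← ih, Symp.T_mul, Nat.cast_succ]
    rw [this]
    exact pow_mem hT n
  have hCsm : ∀ (a : F) x, x ∈ C → a • x ∈ C := fun a x hx c => by rw [Symp.T_smul]; exact hx _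
  have hCim : ∀ g ∈ M, ∀ x, x ∈ C → ap g x ∈ C := fun g hg x hx c => by
    rw [← Symp.conj_T hf (hM hg)]
    exact mul_mem (mul_mem hg (hx c)) (inv_mem hg)
  have hCadd : ∀ x y, x ∈ C → y ∈ C → B₄ x y ≠ 0 → x + y ∈ C := fun x y hx hy h => by
    have := hCim _ (hy (B₄ x y)⁻¹) x hx
    rwa [Symp.ap_T, inv_mul_cancel₀ h, one_smul] at this
  have hcoord : ∀ x, Γ 4 *ᵥ x = x → ∃ a b : F,
      x = (P : M₄) *ᵥ (a • Pi.single (.inl 0) 1 + b • Pi.single (.inr 0) 1) := by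
    intro x hx
    obtain ⟨y, rfl⟩ : ∃ y, x = (P : M₄) *ᵥ y :=
      ⟨((P⁻¹ : GL₄) : M₄) *ᵥ x, by simp [Matrix.mulVec_mulVec]⟩
    rw [Matrix.mulVec_mulVec, E.eq, ← Matrix.mulVec_mulVec] at hx
    have hx' := congrArg (fun w => ((P⁻¹ : GL₄) : M₄) *ᵥ w) hx
    simp only [Matrix.mulVec_mulVec, ← mul_assoc, Units.inv_mul, one_mul, Matrix.one_mulVec] at hx'
    have e1 := congrFun hx' (.inl 1)
    have e2 := congrFun hx' (.inr 1)
    simp [Matrix.mulVec_diagonal] at e1 e2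
    have h0 : ∀ z : F, -z = z → z = 0 := fun z hz =>
      (mul_eq_zero.1 (show (2 : F) * z = 0 by linear_combination -hz)).resolve_left S.two
    refine ⟨y (.inl 0), y (.inr 0), congrArg _ ?_⟩
    funext i
    rcases i with i | i <;> fin_cases i <;> simp [h0 _ e1, h0 _ e2]
  have hΓ4v : Γ 4 *ᵥ v = v := by
    rw [hv, Matrix.mulVec_mulVec, E.eq, ← Matrix.mulVec_mulVec]
    congr 1
    funext i
    rcases i with i | i <;> fin_cases i <;> simp [Matrix.mulVec_diagonal]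
  -- a second centre in the eigenspace
  obtain ⟨w, hwC, hw4, hvw⟩ : ∃ w, w ∈ C ∧ Γ 4 *ᵥ w = w ∧ B₄ v w ≠ 0 := by
    by_contra! hc
    have hpair : ∀ j : Fin 5, j ≠ 4 → j ≠ 0 → ∃ μ : F, (Γ 0 * Γ j) *ᵥ v = μ • v := by
      intro j hj hj0
      obtain ⟨g, hg, hgm⟩ := S.gam 0
      obtain ⟨g', hg', hgm'⟩ := S.gam j
      have hwC : (Γ 0 * Γ j) *ᵥ v ∈ C := by
        have := hCim _ (mul_mem hg hg') v hCv
        rwa [ap_def, Units.val_mul, hgm, hgm'] at this
      have hw4 : Γ 4 *ᵥ ((Γ 0 * Γ j) *ᵥ v) = (Γ 0 * Γ j) *ᵥ v := by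
        rw [Matrix.mulVec_mulVec, ← comm_two S.anti (by decide) hj, ← Matrix.mulVec_mulVec, hΓ4v]
      have hz := hc _ hwC hw4
      obtain ⟨a, b, hab⟩ := hcoord _ hw4
      rw [hab, hv, show B₄ ((P : M₄) *ᵥ Pi.single (.inl 0) 1)
        ((P : M₄) *ᵥ (a • Pi.single (.inl 0) 1 + b • Pi.single (.inr 0) 1)) = B₄ (Pi.single (.inl 0) 1)
          (a • Pi.single (.inl 0) 1 + b • Pi.single (.inr 0) 1) from E.mem _ _] at hz
      have hb : b = 0 := by
        simpa [Cfsg.sympForm, Matrix.mulVec, dotProduct, Fintype.sum_sum_type, Fin.sum_univ_two,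
          Matrix.J, Matrix.fromBlocks, Matrix.one_apply] using hz
      exact ⟨a, by rw [hab, hb, zero_smul, add_zero, Matrix.mulVec_smul]⟩
    obtain ⟨μ, hμ⟩ := hpair 1 (by decide) (by decide)
    obtain ⟨ν, hν⟩ := hpair 2 (by decide) (by decide)
    have e : Γ 0 * Γ 1 * (Γ 0 * Γ 2) = -(Γ 0 * Γ 2 * (Γ 0 * Γ 1)) := by
      simp (discharger := decide) only [mul_assoc, neg_mul, mul_neg, neg_neg, gsw S.anti,
        gsw' S.anti, gsq S.anti, S.anti.sq, one_mul, mul_one]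
    have e' := congrArg (fun A => A *ᵥ v) e
    simp only [← Matrix.mulVec_mulVec, Matrix.neg_mulVec] at e'
    simp only [Matrix.mulVec_mulVec (M := Γ 0)] at e'
    rw [hν, Matrix.mulVec_smul, hμ, Matrix.mulVec_smul, hν, smul_smul, smul_smul] at e'
    have hv0 : v ≠ 0 := ap_ne_zero P (by simp)
    have e'' : ((2 : F) * (μ * ν)) • v = 0 := by
      linear_combination (norm := module) e'
    have hμν := (mul_eq_zero.1 ((smul_eq_zero.1 e'').resolve_right hv0)).resolve_left S.two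
    have sq : ∀ j : Fin 5, j ≠ 0 → Γ 0 * Γ j * (Γ 0 * Γ j) = -1 := fun j hj => by
      rw [mul_assoc, ← mul_assoc (Γ j), S.anti.anti j 0 hj]
      simp [mul_assoc, S.anti.sq, ← mul_assoc (Γ 0) (Γ 0)]
    have bad : ∀ (j : Fin 5) (μ : F), j ≠ 0 → (Γ 0 * Γ j) *ᵥ v = μ • v → μ ≠ 0 := by
      intro j μ hj h hμ0
      have this : (Γ 0 * Γ j * (Γ 0 * Γ j)) *ᵥ v = (-1 : M₄) *ᵥ v := by rw [sq j hj]
      rw [← Matrix.mulVec_mulVec, h, hμ0, zero_smul, Matrix.mulVec_zero] at this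
      rw [Matrix.neg_mulVec, Matrix.one_mulVec] at this
      exact hv0 (neg_eq_zero.1 this.symm)
    rcases mul_eq_zero.1 hμν with h | h
    · exact bad 1 μ (by decide) hμ h
    · exact bad 2 ν (by decide) hν h
  have hplus : ∀ x, Γ 4 *ᵥ x = x → x ∈ C := by
    intro x hx
    obtain ⟨a, b, rfl⟩ := hcoord x hx
    obtain ⟨c, d, hcd⟩ := hcoord w hw4
    have hvC := hCv
    have hd : d ≠ 0 := by
      intro hd
      rw [hcd, hd, zero_smul, add_zero, Matrix.mulVec_smul, ← hv, bl.smul_right,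
        hf.alternating, mul_zero] at hvw
      exact hvw rfl
    set s := a - b / d * c with hs
    have e : (P : M₄) *ᵥ (a • Pi.single (.inl 0) 1 + b • Pi.single (.inr 0) 1) = s • v + (b / d) • w := by
      rw [hcd, hv, ← Matrix.mulVec_smul, ← Matrix.mulVec_smul, ← Matrix.mulVec_add]
      congr 1
      rw [hs]
      match_scalars <;> field_simp <;> ring
    rw [e]
    by_cases hs0 : s = 0
    · rw [hs0, zero_smul, zero_add]; exact hCsm _ _ hwC
    by_cases hb0 : b / d = 0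
    · rw [hb0, zero_smul, add_zero]; exact hCsm _ _ hCv
    refine hCadd _ _ (hCsm _ _ hCv) (hCsm _ _ hwC) ?_
    rw [bl.smul_left, bl.smul_right]
    exact mul_ne_zero hs0 (mul_ne_zero hb0 hvw)
  have hminus : ∀ x, Γ 4 *ᵥ x = -x → x ∈ C := by
    intro x hx
    obtain ⟨g, hg, hgm⟩ := S.gam 0
    have h : Γ 4 *ᵥ (Γ 0 *ᵥ x) = Γ 0 *ᵥ x := by
      rw [Matrix.mulVec_mulVec, S.anti.anti 4 0 (by decide), Matrix.neg_mulVec,
        ← Matrix.mulVec_mulVec, hx, Matrix.mulVec_neg, neg_neg]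
    have := hCim g hg _ (hplus _ h)
    rwa [ap_def, hgm, Matrix.mulVec_mulVec, S.anti.sq, Matrix.one_mulVec] at this
  have hthree : ∀ x, Γ 3 *ᵥ x = x → x ∈ C := by
    intro x hx
    obtain ⟨n, hn, hnm⟩ := S.perm 3 4 0 1 (by decide) (by decide)
    have hc : Γ 3 * (n : M₄) = (n : M₄) * Γ 4 := by
      rw [hnm, Matrix.smul_mul, Matrix.mul_smul, S.anti.sub_sub_perm (by decide) (by decide),
        show (Equiv.swap (3 : Fin 5) 4 * Equiv.swap 0 1 : Equiv.Perm (Fin 5)) 4 = 3 by decide]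
    have h : Γ 4 *ᵥ (((n⁻¹ : GL₄) : M₄) *ᵥ x) = ((n⁻¹ : GL₄) : M₄) *ᵥ x := by
      have e : ((n⁻¹ : GL₄) : M₄) * Γ 3 = Γ 4 * ((n⁻¹ : GL₄) : M₄) := by
        calc ((n⁻¹ : GL₄) : M₄) * Γ 3
            = ((n⁻¹ : GL₄) : M₄) * (Γ 3 * (n : M₄)) * ((n⁻¹ : GL₄) : M₄) := by simp [mul_assoc]
          _ = _ := by rw [hc, ← mul_assoc, Units.inv_mul, one_mul]
      rw [Matrix.mulVec_mulVec, ← e, ← Matrix.mulVec_mulVec, hx]
    have := hCim n hn _ (hplus _ h)
    rwa [ap_def, Matrix.mulVec_mulVec, Units.mul_inv, Matrix.one_mulVec] at this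
  refine Symp.isom_le_of_T_mem hf fun x c => ?_
  let Pset : Set (Fin 2 ⊕ Fin 2 → F) :=
    {x | Γ 4 *ᵥ x = x ∨ Γ 4 *ᵥ x = -x ∨ Γ 3 *ᵥ x = x}
  have hPC : ∀ q ∈ Pset, q ∈ C := by
    rintro q (h | h | h)
    · exact hplus q h
    · exact hminus q h
    · exact hthree q h
  refine Symp.T_mem_of_connected hf S.two hM (Pset := Pset) (fun q hq c => hPC q hq c) ?_ ?_ x c
  · intro q hq
    obtain ⟨y, hy⟩ := (hf.nondegenerate q hq).2
    by_cases h : B₄ q (y + Γ 4 *ᵥ y) = 0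
    · refine ⟨y - Γ 4 *ᵥ y, Or.inr (Or.inl ?_), fun h' => hy ?_⟩
      · rw [Matrix.mulVec_sub, Matrix.mulVec_mulVec, S.anti.sq, Matrix.one_mulVec, neg_sub]
      · have h2 : (2 : F) * B₄ q y = 0 := by
          rw [bl.add_right] at h
          rw [Symp.sub_right hf] at h'
          linear_combination h + h'
        exact (mul_eq_zero.1 h2).resolve_left S.two
    · refine ⟨_, Or.inl ?_, h⟩
      rw [Matrix.mulVec_add, Matrix.mulVec_mulVec, S.anti.sq, Matrix.one_mulVec, add_comm]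
  · intro q hq q' hq' hq0 hq'0
    -- each vector has non-zero projection on two of the three eigenspaces
    have key : ∀ A : M₄, A * A = 1 → adj A = A → (∀ r, A *ᵥ r = r → r ∈ Pset) → q + A *ᵥ q ≠ 0 →
        q' + A *ᵥ q' ≠ 0 → ∃ r ∈ Pset, B₄ q r ≠ 0 ∧ B₄ q' r ≠ 0 := by
      intro A hA hadj hr h1 h2
      obtain ⟨y₁, hy₁⟩ := (hf.nondegenerate _ h1).2
      obtain ⟨y₂, hy₂⟩ := (hf.nondegenerate _ h2).2
      obtain ⟨y, hy, hy'⟩ : ∃ y, B₄ (q + A *ᵥ q) y ≠ 0 ∧ B₄ (q' + A *ᵥ q') y ≠ 0 := by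
        by_cases e1 : B₄ (q' + A *ᵥ q') y₁ = 0
        swap; · exact ⟨y₁, hy₁, e1⟩
        by_cases e2 : B₄ (q + A *ᵥ q) y₂ = 0
        swap; · exact ⟨y₂, e2, hy₂⟩
        exact ⟨y₁ + y₂, by rw [bl.add_right, e2, add_zero]; exact hy₁,
          by rw [bl.add_right, e1, zero_add]; exact hy₂⟩
      refine ⟨y + A *ᵥ y, hr _ ?_, ?_, ?_⟩
      · rw [Matrix.mulVec_add, Matrix.mulVec_mulVec, hA, Matrix.one_mulVec, add_comm]
      all_goals
        rw [bl.add_right]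
        rw [bl.add_left, PauliFour.sympForm_adj, hadj] at hy hy'
        assumption
    have hsum : ∀ A : M₄, ∀ r, r ≠ 0 → A *ᵥ r = r → r + A *ᵥ r ≠ 0 := fun A r hr0 h h' => by
      rw [h, ← two_smul F] at h'
      exact hr0 ((smul_eq_zero.1 h').resolve_left S.two)
    have opp : ∀ r, r ≠ 0 → (Γ 4 *ᵥ r = r ∨ Γ 4 *ᵥ r = -r) → r + Γ 3 *ᵥ r ≠ 0 := by
      intro r hr0 h h'
      have e3 : Γ 3 *ᵥ r = -r := eq_neg_of_add_eq_zero_right h'
      have e := congrArg (fun A => A *ᵥ r) (S.anti.anti 3 4 (by decide))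
      simp only [← Matrix.mulVec_mulVec, Matrix.neg_mulVec] at e
      rcases h with h | h <;>
        · rw [h, e3] at e
          simp only [Matrix.mulVec_neg, e3, h, neg_neg] at e
          first
            | exact hr0 ((smul_eq_zero.1 (show (2 : F) • r = 0 by
                linear_combination (norm := module) e)).resolve_left S.two)
            | exact hr0 ((smul_eq_zero.1 (show (2 : F) • r = 0 by
                linear_combination (norm := module) -e)).resolve_left S.two)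
    have tri : ∀ r, r ≠ 0 → Γ 3 *ᵥ r = r → r + Γ 4 *ᵥ r ≠ 0 ∧ r + (-Γ 4) *ᵥ r ≠ 0 := by
      intro r hr0 h
      have e := congrArg (fun A => A *ᵥ r) (S.anti.anti 3 4 (by decide))
      simp only [← Matrix.mulVec_mulVec, Matrix.neg_mulVec] at e
      constructor <;> intro h'
      · rw [h, eq_neg_of_add_eq_zero_right h', Matrix.mulVec_neg, h] at e
        exact hr0 ((smul_eq_zero.1 (show (2 : F) • r = 0 by
          linear_combination (norm := module) -e)).resolve_left S.two)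
      · rw [Matrix.neg_mulVec, ← sub_eq_add_neg, sub_eq_zero] at h'
        rw [h, ← h', h] at e
        exact hr0 ((smul_eq_zero.1 (show (2 : F) • r = 0 by
          linear_combination (norm := module) e)).resolve_left S.two)
    have hn4 : ∀ r, r ≠ 0 → Γ 4 *ᵥ r = -r → r + (-Γ 4) *ᵥ r ≠ 0 := fun r hr0 h =>
      hsum (-Γ 4) r hr0 (by rw [Matrix.neg_mulVec, h, neg_neg])
    have k4 := key (Γ 4) (S.anti.sq 4) (S.adj_eq 4) (fun r h => Or.inl h)
    have k4' := key (-Γ 4) (by rw [neg_mul_neg, S.anti.sq])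
      (by rw [← neg_one_smul F (Γ 4), adj_smul, S.adj_eq])
      (fun r h => Or.inr (Or.inl (by rw [Matrix.neg_mulVec, neg_eq_iff_eq_neg] at h; exact h)))
    have k3 := key (Γ 3) (S.anti.sq 3) (S.adj_eq 3) (fun r h => Or.inr (Or.inr h))
    rcases hq with h | h | h <;> rcases hq' with h' | h' | h'
    · exact k4 (hsum _ _ hq0 h) (hsum _ _ hq'0 h')
    · exact k3 (opp _ hq0 (Or.inl h)) (opp _ hq'0 (Or.inr h'))
    · exact k4 (hsum _ _ hq0 h) (tri _ hq'0 h').1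
    · exact k3 (opp _ hq0 (Or.inr h)) (opp _ hq'0 (Or.inl h'))
    · exact k4' (hn4 _ hq0 h) (hn4 _ hq'0 h')
    · exact k4' (hn4 _ hq0 h) (tri _ hq'0 h').2
    · exact k4 (tri _ hq0 h).1 (hsum _ _ hq'0 h')
    · exact k4' (tri _ hq0 h).2 (hn4 _ hq'0 h')
    · exact k3 (hsum _ _ hq0 h) (hsum _ _ hq'0 h')

end Frame5

end CfsgLib.Geometric.SympFour
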