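import Mathlib.LinearAlgebra.Matrix.Adjugate
import Mathlib.LinearAlgebra.Matrix.Trace
import Mathlib.LinearAlgebra.FiniteDimensional.Lemmas
import Mathlib.LinearAlgebra.Matrix.Dual
import Mathlib.Tactic.Module
import Mathlib.Tactic.LinearCombination

/-!
Coordinates of two by two matrices in a quaternion basis.
-/

set_option autoImplicit false
set_option linter.unusedSectionVars false

namespace CfsgLib.Geometric.SympFour

open Matrix

variable {F : Type*} [Field F]

local notation "M₂" => Matrix (Fin 2) (Fin 2) F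

/-- The combination of `1, I, J, IJ`. -/
def quat (I J : Matrix (Fin 2) (Fin 2) F) (x : Fin 4 → F) : Matrix (Fin 2) (Fin 2) F :=
  x 0 • 1 + x 1 • I + x 2 • J + x 3 • (I * J)

/-- The product of coordinates. -/
def qmul (x y : Fin 4 → F) : Fin 4 → F :=
  ![x 0 * y 0 - x 1 * y 1 - x 2 * y 2 - x 3 * y 3, x 0 * y 1 + x 1 * y 0 + x 2 * y 3 - x 3 * y 2,
    x 0 * y 2 - x 1 * y 3 + x 2 * y 0 + x 3 * y 1, x 0 * y 3 + x 1 * y 2 - x 2 * y 1 + x 3 * y 0]

/-- The conjugate. -/
def qconj (x : Fin 4 → F) : Fin 4 → F := ![x 0, -x 1, -x 2, -x 3]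

/-- Two anticommuting square roots of minus one. -/
structure QBasis (I J : Matrix (Fin 2) (Fin 2) F) : Prop where
  two : (2 : F) ≠ 0
  II : I * I = -1
  JJ : J * J = -1
  JI : J * I = -(I * J)

namespace QBasis

variable {I J : Matrix (Fin 2) (Fin 2) F} (h : QBasis I J)
include h

theorem mul (x y : Fin 4 → F) : quat I J x * quat I J y = quat I J (qmul x y) := by
  have e1 : I * (I * J) = -J := by rw [← mul_assoc, h.II, neg_one_mul]
  have e2 : I * J * I = J := by
    rw [mul_assoc, h.JI, Matrix.mul_neg, e1, neg_neg]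
  have e3 : I * J * J = -I := by rw [mul_assoc, h.JJ, Matrix.mul_neg, mul_one]
  have e4 : J * (I * J) = I := by
    rw [← mul_assoc, h.JI, Matrix.neg_mul, e3, neg_neg]
  have e5 : I * J * (I * J) = -1 := by rw [← mul_assoc, e2, h.JJ]
  simp only [quat, qmul, add_mul, mul_add, Matrix.smul_mul, Matrix.mul_smul, smul_smul, smul_add,
    one_mul, mul_one, h.II, h.JJ, h.JI, e1, e2, e3, e4, e5]
  simp only [Matrix.cons_val_zero, Matrix.cons_val_one, Matrix.cons_val]
  module

theorem trace_quat (x : Fin 4 → F) : Matrix.trace (quat I J x) = 2 * x 0 := by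
  have two := h.two
  have aux : ∀ A B : M₂, B * B = -1 → B * A = -(A * B) → Matrix.trace A = 0 := by
    intro A B hB hBA
    have e : Matrix.trace (B * A * B) = -Matrix.trace A := by
      rw [Matrix.trace_mul_cycle, hB, neg_one_mul, Matrix.trace_neg]
    rw [hBA, Matrix.neg_mul, mul_assoc, hB, Matrix.mul_neg, mul_one, neg_neg] at e
    exact (mul_eq_zero.1 (show (2 : F) * Matrix.trace A = 0 by linear_combination e)).resolve_left two
  have t1 : Matrix.trace I = 0 := aux I J h.JJ h.JI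
  have t2 : Matrix.trace J = 0 := aux J I h.II (by rw [h.JI, neg_neg])
  have t3 : Matrix.trace (I * J) = 0 := aux _ I h.II (by
    rw [mul_assoc I J I, h.JI, Matrix.mul_neg, neg_neg])
  simp [quat, Matrix.trace_add, Matrix.trace_smul, t1, t2, t3, Matrix.trace_one, mul_comm]

theorem injective : Function.Injective (quat I J) := by
  intro x y hxy
  have key : ∀ z : Fin 4 → F, (qmul x z) 0 = (qmul y z) 0 := fun z => by
    have e := congrArg (fun A => Matrix.trace (A * quat I J z)) hxy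
    simp only [h.mul, h.trace_quat] at e
    exact mul_left_cancel₀ h.two e
  have k0 := key ![1, 0, 0, 0]
  have k1 := key ![0, 1, 0, 0]
  have k2 := key ![0, 0, 1, 0]
  have k3 := key ![0, 0, 0, 1]
  simp [qmul] at k0 k1 k2 k3
  funext i; fin_cases i <;> assumption

theorem surjective : Function.Surjective (quat I J) := by
  let φ : (Fin 4 → F) →ₗ[F] M₂ :=
    { toFun := quat I J
      map_add' := fun x y => by simp only [quat, Pi.add_apply]; module
      map_smul' := fun c x => by simp only [quat, Pi.smul_apply, smul_eq_mul, RingHom.id_apply]; module }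
  exact (LinearMap.injective_iff_surjective_of_finrank_eq_finrank (f := φ)
    (by simp [Module.finrank_matrix])).1 h.injective

theorem adjugate_quat (x : Fin 4 → F) :
    Matrix.adjugate (quat I J x) = quat I J (qconj x) := by
  have e : Matrix.adjugate (quat I J x) =
      Matrix.trace (quat I J x) • (1 : M₂) - quat I J x := by
    ext i j
    fin_cases i <;> fin_cases j <;>
      simp [Matrix.adjugate_fin_two, Matrix.trace, Fin.sum_univ_two]
  rw [e, h.trace_quat]
  simp only [quat, qconj, Matrix.cons_val_zero, Matrix.cons_val_one, Matrix.cons_val]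
  module

theorem det_quat (x : Fin 4 → F) :
    (quat I J x).det = x 0 * x 0 + x 1 * x 1 + x 2 * x 2 + x 3 * x 3 := by
  have e := Matrix.mul_adjugate (quat I J x)
  rw [h.adjugate_quat, h.mul] at e
  have e' := congrArg Matrix.trace e
  rw [h.trace_quat, Matrix.trace_smul, Matrix.trace_one] at e'
  refine mul_left_cancel₀ h.two ?_
  simp [qmul, qconj] at e'
  linear_combination -e'

omit h in
theorem quat_basis : quat I J ![1, 0, 0, 0] = 1 ∧ quat I J ![0, 1, 0, 0] = I ∧
    quat I J ![0, 0, 1, 0] = J ∧ quat I J ![0, 0, 0, 1] = I * J := by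
  simp [quat]

end QBasis

/-- A quaternion normalising the axes has one, two or four coordinates of equal square. -/
theorem rot_cases (h2 : (2 : F) ≠ 0) {a b c d : F}
    (hI : (c = 0 ∧ d = 0) ∨ (a = 0 ∧ b = 0) ∨
      (∃ σ : F, (σ = 1 ∨ σ = -1) ∧ ((b = σ * c ∧ a = σ * d) ∨ (b = σ * d ∧ a = -(σ * c)))))
    (hJ : (b = 0 ∧ d = 0) ∨ (a = 0 ∧ c = 0) ∨
      (∃ σ : F, (σ = 1 ∨ σ = -1) ∧ ((c = σ * b ∧ d = -(σ * a)) ∨ (c = σ * d ∧ a = σ * b)))) :
    (a * a = b * b ∧ b * b = c * c ∧ c * c = d * d) ∨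
      (c = 0 ∧ d = 0 ∧ (a = 0 ∨ b = 0 ∨ a * a = b * b)) ∨
      (a = 0 ∧ b = 0 ∧ (c = 0 ∨ d = 0 ∨ c * c = d * d)) ∨
      (b = 0 ∧ d = 0 ∧ (a = 0 ∨ c = 0 ∨ a * a = c * c)) ∨
      (a = 0 ∧ c = 0 ∧ (b = 0 ∨ d = 0 ∨ b * b = d * d)) ∨
      (b = 0 ∧ c = 0 ∧ (a = 0 ∨ d = 0 ∨ a * a = d * d)) ∨
      (a = 0 ∧ d = 0 ∧ (b = 0 ∨ c = 0 ∨ b * b = c * c)) := by
  have h0 : ∀ z : F, z = -z → z = 0 := fun z hz =>
    (mul_eq_zero.1 (show (2 : F) * z = 0 by linear_combination hz)).resolve_left h2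
  rcases hI with ⟨rfl, rfl⟩ | ⟨rfl, rfl⟩ | ⟨σ, rfl | rfl, ⟨rfl, rfl⟩ | ⟨rfl, rfl⟩⟩ <;>
    rcases hJ with ⟨e1, e2⟩ | ⟨e1, e2⟩ | ⟨τ, rfl | rfl, ⟨e1, e2⟩ | ⟨e1, e2⟩⟩ <;>
    grind

end CfsgLib.Geometric.SympFour
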