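import Cfsg.Agent.Lib.Geometric.SympFour.Vec
import Cfsg.Agent.Lib.Geometric.SympFour.Quat
import Cfsg.Agent.Lib.Geometric.SOTensor.Max

/-!
The two blocks of the centraliser of one involution of a frame.
-/

set_option autoImplicit false
set_option linter.unusedSectionVars false

namespace CfsgLib.Geometric.SympFour

open scoped Matrix
open CfsgLib.PauliFour CfsgLib.Geometric

variable {F : Type*} [Field F]

theorem gsw {Γ : Fin 5 → Matrix (Fin 2 ⊕ Fin 2) (Fin 2 ⊕ Fin 2) F} (h : Anti Γ) {i j : Fin 5}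
    (hij : j < i) (A : Matrix (Fin 2 ⊕ Fin 2) (Fin 2 ⊕ Fin 2) F) :
    Γ i * (Γ j * A) = -(Γ j * (Γ i * A)) := by
  rw [← mul_assoc, h.anti i j hij.ne', Matrix.neg_mul, mul_assoc]

theorem gsw' {Γ : Fin 5 → Matrix (Fin 2 ⊕ Fin 2) (Fin 2 ⊕ Fin 2) F} (h : Anti Γ) {i j : Fin 5}
    (hij : j < i) : Γ i * Γ j = -(Γ j * Γ i) := h.anti i j hij.ne'

theorem gsq {Γ : Fin 5 → Matrix (Fin 2 ⊕ Fin 2) (Fin 2 ⊕ Fin 2) F} (h : Anti Γ) (i : Fin 5)
    (A : Matrix (Fin 2 ⊕ Fin 2) (Fin 2 ⊕ Fin 2) F) : Γ i * (Γ i * A) = A := by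
  rw [← mul_assoc, h.sq, one_mul]

/-- The sign of a block. -/
def bsgn (k : Fin 2) : F := ![1, -1] k

/-- A block in a basis. -/
def blk (P : GL (Fin 2 ⊕ Fin 2) F) (k : Fin 2) (A : Matrix (Fin 2 ⊕ Fin 2) (Fin 2 ⊕ Fin 2) F) :
    Matrix (Fin 2) (Fin 2) F :=
  let B := ((P⁻¹ : GL (Fin 2 ⊕ Fin 2) F) : Matrix (Fin 2 ⊕ Fin 2) (Fin 2 ⊕ Fin 2) F) * A *
    (P : Matrix (Fin 2 ⊕ Fin 2) (Fin 2 ⊕ Fin 2) F)
  !![B (.inl k) (.inl k), B (.inl k) (.inr k); B (.inr k) (.inl k), B (.inr k) (.inr k)]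

/-- A symplectic eigenbasis of the last involution of the frame. -/
structure Eig (Γ : Fin 5 → Matrix (Fin 2 ⊕ Fin 2) (Fin 2 ⊕ Fin 2) F) (P : GL (Fin 2 ⊕ Fin 2) F) :
    Prop where
  mem : P ∈ Cfsg.spGL 2 F
  eq : Γ 4 * (P : Matrix (Fin 2 ⊕ Fin 2) (Fin 2 ⊕ Fin 2) F) =
    (P : Matrix (Fin 2 ⊕ Fin 2) (Fin 2 ⊕ Fin 2) F) * Matrix.diagonal (Sum.elim ![1, -1] ![1, -1])

variable {Γ : Fin 5 → Matrix (Fin 2 ⊕ Fin 2) (Fin 2 ⊕ Fin 2) F}
  {M : Subgroup (GL (Fin 2 ⊕ Fin 2) F)} {P : GL (Fin 2 ⊕ Fin 2) F}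

local notation "M₄" => Matrix (Fin 2 ⊕ Fin 2) (Fin 2 ⊕ Fin 2) F
local notation "M₂" => Matrix (Fin 2) (Fin 2) F
local notation "GL₄" => GL (Fin 2 ⊕ Fin 2) F
local notation "B₄" => Cfsg.sympForm 2 F

theorem blk_add (k : Fin 2) (A B : M₄) : blk P k (A + B) = blk P k A + blk P k B := by
  ext i j
  simp only [blk, mul_add, add_mul]
  fin_cases i <;> fin_cases j <;> simp

theorem blk_smul (k : Fin 2) (c : F) (A : M₄) : blk P k (c • A) = c • blk P k A := by
  ext i j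
  simp only [blk, Matrix.mul_smul, Matrix.smul_mul]
  fin_cases i <;> fin_cases j <;> simp

theorem blk_zero (k : Fin 2) : blk P k (0 : M₄) = 0 := by
  ext i j
  fin_cases i <;> fin_cases j <;> simp [blk]

theorem blk_sub (k : Fin 2) (A B : M₄) : blk P k (A - B) = blk P k A - blk P k B := by
  rw [sub_eq_add_neg, sub_eq_add_neg, blk_add, ← neg_one_smul F B, blk_smul, neg_one_smul]

theorem blk_neg (k : Fin 2) (A : M₄) : blk P k (-A) = -blk P k A := by
  rw [← neg_one_smul F A, blk_smul, neg_one_smul]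

theorem blk_one (k : Fin 2) : blk P k (1 : M₄) = 1 := by
  ext i j
  fin_cases i <;> fin_cases j <;> simp [blk]

theorem blk_sum {α : Type*} (s : Finset α) (k : Fin 2) (A : α → M₄) :
    blk P k (∑ i ∈ s, A i) = ∑ i ∈ s, blk P k (A i) := by
  classical
  induction s using Finset.induction with
  | empty => simp [blk_zero]
  | insert i s his ih => rw [Finset.sum_insert his, Finset.sum_insert his, blk_add, ih]

namespace Eig

variable (E : Eig Γ P)
include E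

theorem conj_comm {A : M₄} (hA : A * Γ 4 = Γ 4 * A) :
    (((P⁻¹ : GL₄) : M₄) * A * (P : M₄)) * Matrix.diagonal (Sum.elim ![1, -1] ![1, -1]) =
      Matrix.diagonal (Sum.elim ![1, -1] ![1, -1]) * (((P⁻¹ : GL₄) : M₄) * A * (P : M₄)) := by
  have e : ((P⁻¹ : GL₄) : M₄) * Γ 4 =
      Matrix.diagonal (Sum.elim ![1, -1] ![1, -1]) * ((P⁻¹ : GL₄) : M₄) := by
    calc ((P⁻¹ : GL₄) : M₄) * Γ 4
        = ((P⁻¹ : GL₄) : M₄) * (Γ 4 * (P : M₄)) * ((P⁻¹ : GL₄) : M₄) := by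
          simp [mul_assoc]
      _ = _ := by rw [E.eq, ← mul_assoc, Units.inv_mul, one_mul]
  simp only [mul_assoc, ← E.eq]
  rw [← mul_assoc A, hA, mul_assoc, ← mul_assoc, e, mul_assoc]

theorem cross_zero (h2 : (2 : F) ≠ 0) {A : M₄} (hA : A * Γ 4 = Γ 4 * A) (i j : Fin 2 ⊕ Fin 2)
    (h : (Sum.elim ![(1 : F), -1] ![1, -1]) i ≠ (Sum.elim ![(1 : F), -1] ![1, -1]) j) :
    (((P⁻¹ : GL₄) : M₄) * A * (P : M₄)) i j = 0 := by
  have e := congrFun (congrFun (E.conj_comm hA) i) j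
  rw [Matrix.mul_diagonal, Matrix.diagonal_mul, mul_comm] at e
  by_contra hne
  exact h (mul_right_cancel₀ hne e).symm

theorem blk_mul (h2 : (2 : F) ≠ 0) (k : Fin 2) {A : M₄} (hA : A * Γ 4 = Γ 4 * A) (B : M₄) :
    blk P k (A * B) = blk P k A * blk P k B := by
  have e : ((P⁻¹ : GL₄) : M₄) * (A * B) * (P : M₄) =
      (((P⁻¹ : GL₄) : M₄) * A * (P : M₄)) * (((P⁻¹ : GL₄) : M₄) * B * (P : M₄)) := by
    simp [mul_assoc]
  have h1 : (1 : F) ≠ -1 := fun h => h2 (by linear_combination h)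
  have c := fun i j => E.cross_zero h2 hA i j
  have z1 := c (.inl 0) (.inl 1) (by simpa using h1)
  have z2 := c (.inl 0) (.inr 1) (by simpa using h1)
  have z3 := c (.inr 0) (.inl 1) (by simpa using h1)
  have z4 := c (.inr 0) (.inr 1) (by simpa using h1)
  have z5 := c (.inl 1) (.inl 0) (by simpa using h1.symm)
  have z6 := c (.inl 1) (.inr 0) (by simpa using h1.symm)
  have z7 := c (.inr 1) (.inl 0) (by simpa using h1.symm)
  have z8 := c (.inr 1) (.inr 0) (by simpa using h1.symm)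
  clear c
  simp only [blk, e]
  set A' := ((P⁻¹ : GL₄) : M₄) * A * (P : M₄)
  set B' := ((P⁻¹ : GL₄) : M₄) * B * (P : M₄)
  rw [Matrix.mul_fin_two]
  have w := fun i j => Matrix.mul_apply (M := A') (N := B') (i := i) (k := j)
  fin_cases k
  all_goals
    simp only [Fin.isValue, Fin.zero_eta, Fin.mk_one, w, Fintype.sum_sum_type, Fin.sum_univ_two, z1,
      z2, z3, z4, z5, z6, z7, z8, zero_mul, add_zero, zero_add]

theorem adj_conj (A : M₄) : adj (((P⁻¹ : GL₄) : M₄) * A * (P : M₄)) =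
    ((P⁻¹ : GL₄) : M₄) * adj A * (P : M₄) := by
  rw [adj_mul, adj_mul, adj_eq_inv_of_mem E.mem, adj_eq_inv_of_mem (inv_mem E.mem), inv_inv,
    mul_assoc]

theorem blk_adj (k : Fin 2) (A : M₄) : blk P k (adj A) = Matrix.adjugate (blk P k A) := by
  simp only [blk, ← E.adj_conj]
  set B := ((P⁻¹ : GL₄) : M₄) * A * (P : M₄)
  ext i j
  fin_cases k <;> fin_cases i <;> fin_cases j <;>
    simp [Matrix.adjugate_fin_two, adj, Matrix.mul_apply, Matrix.J, Matrix.fromBlocks,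
      Fintype.sum_sum_type, Fin.sum_univ_two, Matrix.one_apply]

theorem blk_four (k : Fin 2) : blk P k (Γ 4) = (bsgn k : F) • (1 : M₂) := by
  have e : ((P⁻¹ : GL₄) : M₄) * Γ 4 * (P : M₄) = Matrix.diagonal (Sum.elim ![1, -1] ![1, -1]) := by
    rw [mul_assoc, E.eq, ← mul_assoc, Units.inv_mul, one_mul]
  ext i j
  simp only [blk, e]
  fin_cases k <;> fin_cases i <;> fin_cases j <;> simp [bsgn]

/-- Elements commuting with the involution are determined by their blocks. -/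
theorem blk_ext (h2 : (2 : F) ≠ 0) {A : M₄} (hA : A * Γ 4 = Γ 4 * A)
    (h0 : blk P 0 A = 0) (h1 : blk P 1 A = 0) : A = 0 := by
  have h1' : (1 : F) ≠ -1 := fun h => h2 (by linear_combination h)
  have c := fun i j => E.cross_zero h2 hA i j
  have z1 := c (.inl 0) (.inl 1) (by simpa using h1')
  have z2 := c (.inl 0) (.inr 1) (by simpa using h1')
  have z3 := c (.inr 0) (.inl 1) (by simpa using h1')
  have z4 := c (.inr 0) (.inr 1) (by simpa using h1')
  have z5 := c (.inl 1) (.inl 0) (by simpa using h1'.symm)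
  have z6 := c (.inl 1) (.inr 0) (by simpa using h1'.symm)
  have z7 := c (.inr 1) (.inl 0) (by simpa using h1'.symm)
  have z8 := c (.inr 1) (.inr 0) (by simpa using h1'.symm)
  have a : ∀ i j, blk P 0 A i j = 0 := fun i j => by rw [h0]; rfl
  have b : ∀ i j, blk P 1 A i j = 0 := fun i j => by rw [h1]; rfl
  have a1 : (((P⁻¹ : GL₄) : M₄) * A * (P : M₄)) (.inl 0) (.inl 0) = 0 := a 0 0
  have a2 : (((P⁻¹ : GL₄) : M₄) * A * (P : M₄)) (.inl 0) (.inr 0) = 0 := a 0 1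
  have a3 : (((P⁻¹ : GL₄) : M₄) * A * (P : M₄)) (.inr 0) (.inl 0) = 0 := a 1 0
  have a4 : (((P⁻¹ : GL₄) : M₄) * A * (P : M₄)) (.inr 0) (.inr 0) = 0 := a 1 1
  have b1 : (((P⁻¹ : GL₄) : M₄) * A * (P : M₄)) (.inl 1) (.inl 1) = 0 := b 0 0
  have b2 : (((P⁻¹ : GL₄) : M₄) * A * (P : M₄)) (.inl 1) (.inr 1) = 0 := b 0 1
  have b3 : (((P⁻¹ : GL₄) : M₄) * A * (P : M₄)) (.inr 1) (.inl 1) = 0 := b 1 0
  have b4 : (((P⁻¹ : GL₄) : M₄) * A * (P : M₄)) (.inr 1) (.inr 1) = 0 := b 1 1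
  have hB : ((P⁻¹ : GL₄) : M₄) * A * (P : M₄) = 0 := by
    ext i j
    rcases i with i | i <;> rcases j with j | j <;> fin_cases i <;> fin_cases j <;>
      assumption
  calc A = (P : M₄) * (((P⁻¹ : GL₄) : M₄) * A * (P : M₄)) * ((P⁻¹ : GL₄) : M₄) := by
        simp [mul_assoc]
    _ = 0 := by rw [hB]; simp

end Eig

theorem Frame5.exists_eig [Finite F] (S : Frame5 Γ M) : ∃ P, Eig Γ P := by
  obtain ⟨g, hg, hgm⟩ := S.gam 4
  have hne : (g : M₄) ≠ 1 := fun h => by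
    have := S.anti.anti 4 0 (by decide)
    rw [← hgm, h, one_mul, mul_one] at this
    have h' : (2 : F) • Γ 0 = 0 := by
      rw [two_smul]; nth_rw 2 [this]; exact add_neg_cancel _
    have h0 := (smul_eq_zero.1 h').resolve_left S.two
    simpa [h0] using S.anti.sq 0
  have hne' : (g : M₄) ≠ -1 := fun h => by
    have := S.anti.anti 4 0 (by decide)
    rw [← hgm, h] at this
    simp only [neg_mul, one_mul, mul_neg, mul_one, neg_neg] at this
    have h' : (2 : F) • Γ 0 = 0 := by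
      rw [two_smul]; nth_rw 1 [← this]; exact neg_add_cancel _
    have h0 := (smul_eq_zero.1 h').resolve_left S.two
    simpa [h0] using S.anti.sq 0
  obtain ⟨P, hP, hP'⟩ := exists_frame_one S.two (S.le hg) (by rw [hgm]; exact S.anti.sq 4) hne hne'
  exact ⟨P, hP, by rwa [hgm] at hP'⟩

/-- The part of the group commuting with the last involution. -/
def cent (Γ : Fin 5 → Matrix (Fin 2 ⊕ Fin 2) (Fin 2 ⊕ Fin 2) F)
    (M : Subgroup (GL (Fin 2 ⊕ Fin 2) F)) : Subgroup (GL (Fin 2 ⊕ Fin 2) F) where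
  carrier := {g | g ∈ M ∧ (g : M₄) * Γ 4 = Γ 4 * g}
  one_mem' := ⟨one_mem M, by simp⟩
  mul_mem' := fun {a b} ha hb => ⟨mul_mem ha.1 hb.1, by
    rw [Units.val_mul, mul_assoc, hb.2, ← mul_assoc, ha.2, mul_assoc]⟩
  inv_mem' := fun {a} ha => ⟨inv_mem ha.1, by
    calc ((a⁻¹ : GL₄) : M₄) * Γ 4 = ((a⁻¹ : GL₄) : M₄) * (Γ 4 * (a : M₄)) * ((a⁻¹ : GL₄) : M₄) := by
          simp [mul_assoc]
      _ = _ := by rw [← ha.2, ← mul_assoc, Units.inv_mul, one_mul]⟩

theorem comm_two (h : Anti Γ) {i j : Fin 5} (hi : i ≠ 4) (hj : j ≠ 4) :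
    Γ i * Γ j * Γ 4 = Γ 4 * (Γ i * Γ j) := by
  rw [mul_assoc, h.anti j 4 hj, Matrix.mul_neg, ← mul_assoc, h.anti i 4 hi]
  simp [mul_assoc]

theorem comm_gam_V (h : Anti Γ) {i : Fin 5} (hi : i ≠ 4) {a : Fin 5 → F} (ha : a 4 = 0) :
    Γ i * V Γ a * Γ 4 = Γ 4 * (Γ i * V Γ a) := by
  have e : V Γ a * Γ 4 = -(Γ 4 * V Γ a) := by
    have := anti_of_dot_eq_zero h (a := a) (b := Pi.single 4 1) (by rw [dot_single, ha, zero_mul])
    simpa [V_single] using this
  rw [mul_assoc, e, Matrix.mul_neg, ← mul_assoc, h.anti i 4 hi]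
  simp [mul_assoc]

/-- The block map. -/
def proj (S : Frame5 Γ M) (E : Eig Γ P) (k : Fin 2) :
    cent Γ M →* Matrix.SpecialLinearGroup (Fin 2) F where
  toFun g := ⟨blk P k ((g : GL₄) : M₄), by
    have h : adj ((g : GL₄) : M₄) * ((g : GL₄) : M₄) = 1 := by
      rw [adj_eq_inv_of_mem (S.le g.2.1), Units.inv_mul]
    have hc : adj ((g : GL₄) : M₄) * Γ 4 = Γ 4 * adj ((g : GL₄) : M₄) := by
      rw [adj_eq_inv_of_mem (S.le g.2.1)]
      exact ((inv_mem g.2 : (g : GL₄)⁻¹ ∈ cent Γ M)).2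
    have e := congrArg (blk P k) h
    rw [E.blk_mul S.two k hc, E.blk_adj, Matrix.adjugate_mul, blk_one] at e
    simpa using congrFun (congrFun e 0) 0⟩
  map_one' := Subtype.ext (by simp [blk_one])
  map_mul' g h := Subtype.ext (by
    simp only [Subgroup.coe_mul, Units.val_mul, Matrix.SpecialLinearGroup.coe_mul]
    exact E.blk_mul S.two k g.2.2 _)

theorem proj_coe (S : Frame5 Γ M) (E : Eig Γ P) (k : Fin 2) (g : cent Γ M) :
    (proj S E k g : M₂) = blk P k ((g : GL₄) : M₄) := rfl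

namespace Frame5

variable (S : Frame5 Γ M)
include S

theorem prod_four : ∃ ε : F, ε * ε = 1 ∧ Γ 0 * Γ 1 * Γ 2 * Γ 3 = ε • Γ 4 := by
  have a := fun i j (h : i ≠ j) => S.anti.anti i j h
  set D := Γ 0 * Γ 1 * Γ 2 * Γ 3 with hD
  have hadj : adj D = D := by
    rw [hD, adj_mul, adj_mul, adj_mul, S.adj_eq, S.adj_eq, S.adj_eq, S.adj_eq]
    simp (discharger := decide) only [mul_assoc, neg_mul, mul_neg, neg_neg, gsw S.anti, gsw' S.anti, gsq S.anti, S.anti.sq, one_mul, mul_one]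
  have mv : ∀ i, i ≠ 4 → Γ i * D = -(D * Γ i) := by
    intro i hi
    rw [hD]
    fin_cases i <;> simp only [Fin.isValue, Fin.zero_eta, Fin.mk_one, Fin.reduceFinMk] at hi ⊢ <;>
      first | exact absurd rfl hi | (simp (discharger := decide) only [mul_assoc, neg_mul, mul_neg, neg_neg, gsw S.anti, gsw' S.anti, gsq S.anti, S.anti.sq, one_mul, mul_one])
  have htr : Matrix.trace D = 0 := by
    have e : Matrix.trace (Γ 0 * D * Γ 0) = Matrix.trace D := by
      rw [Matrix.trace_mul_cycle, S.anti.sq, one_mul]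
    rw [mv 0 (by decide), Matrix.neg_mul, mul_assoc, S.anti.sq, mul_one, Matrix.trace_neg] at e
    exact (mul_eq_zero.1 (show (2 : F) * Matrix.trace D = 0 by linear_combination -e)).resolve_left
      S.two
  obtain ⟨v, hv⟩ := S.exists_V hadj htr
  have hz : ∀ i, i ≠ 4 → v i = 0 := fun i hi => by
    have := dot_eq_zero_of_anti S.anti S.two (a := Pi.single i 1) (b := v)
      (by rw [V_single, one_smul, hv]; exact mv i hi)
    simpa [dot_comm, dot_single] using this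
  have hv4 : v = Pi.single 4 (v 4) := by
    funext i; by_cases hi : i = 4
    · subst hi; simp
    · simp [hi, hz i hi]
  refine ⟨v 4, ?_, by rw [← hv, hv4, V_single]; simp⟩
  have hsq : D * D = 1 := by
    rw [hD]
    simp (discharger := decide) only [mul_assoc, neg_mul, mul_neg, neg_neg, gsw S.anti, gsw' S.anti, gsq S.anti, S.anti.sq, one_mul, mul_one]
  rw [← hv, V_sq S.anti S.two, hv4, dot_single] at hsq
  have := smul_one_inj (F := F) (c := (Pi.single 4 (v 4) : Fin 5 → F) 4 * v 4) (d := 1)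
    (by rw [hsq, one_smul])
  simpa using this

end Frame5

/-- The block of a vector. -/
def qv (η : F) (x : Fin 5 → F) : Fin 4 → F := ![x 0, x 1, x 2, η * x 3]

/-- The two generators of a block. -/
def bI (Γ : Fin 5 → Matrix (Fin 2 ⊕ Fin 2) (Fin 2 ⊕ Fin 2) F) (P : GL (Fin 2 ⊕ Fin 2) F)
    (k : Fin 2) : Matrix (Fin 2) (Fin 2) F := blk P k (Γ 0 * Γ 1)

@[inherit_doc bI]
def bJ (Γ : Fin 5 → Matrix (Fin 2 ⊕ Fin 2) (Fin 2 ⊕ Fin 2) F) (P : GL (Fin 2 ⊕ Fin 2) F)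
    (k : Fin 2) : Matrix (Fin 2) (Fin 2) F := blk P k (Γ 0 * Γ 2)

namespace Frame5

variable (S : Frame5 Γ M) (E : Eig Γ P)
include S E

theorem qbasis (k : Fin 2) : QBasis (bI Γ P k) (bJ Γ P k) where
  two := S.two
  II := by
    rw [bI, ← E.blk_mul S.two k (comm_two S.anti (by decide) (by decide))]
    rw [show Γ 0 * Γ 1 * (Γ 0 * Γ 1) = -1 by
      rw [mul_assoc, ← mul_assoc (Γ 1), S.anti.anti 1 0 (by decide)]
      simp [mul_assoc, S.anti.sq, ← mul_assoc (Γ 0) (Γ 0)], blk_neg, blk_one]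
  JJ := by
    rw [bJ, ← E.blk_mul S.two k (comm_two S.anti (by decide) (by decide))]
    rw [show Γ 0 * Γ 2 * (Γ 0 * Γ 2) = -1 by
      rw [mul_assoc, ← mul_assoc (Γ 2), S.anti.anti 2 0 (by decide)]
      simp [mul_assoc, S.anti.sq, ← mul_assoc (Γ 0) (Γ 0)], blk_neg, blk_one]
  JI := by
    rw [bI, bJ, ← E.blk_mul S.two k (comm_two S.anti (by decide) (by decide)),
      ← E.blk_mul S.two k (comm_two S.anti (by decide) (by decide)), ← blk_neg]
    congr 1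
    rw [mul_assoc, ← mul_assoc (Γ 2), S.anti.anti 2 0 (by decide), mul_assoc (Γ 0) (Γ 1),
      ← mul_assoc (Γ 1), S.anti.anti 1 0 (by decide)]
    simp [mul_assoc, ← mul_assoc (Γ 0) (Γ 0), S.anti.sq, S.anti.anti 2 1 (by decide)]

theorem blk_zero_three {ε : F} (hε : ε * ε = 1) (hD : Γ 0 * Γ 1 * Γ 2 * Γ 3 = ε • Γ 4) (k : Fin 2) :
    blk P k (Γ 0 * Γ 3) = (ε * bsgn k) • (bI Γ P k * bJ Γ P k) := by
  have hs : (bsgn k : F) * bsgn k = 1 := by fin_cases k <;> simp [bsgn]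
  have key : Γ 0 * Γ 1 * (Γ 0 * Γ 2) * Γ 4 = ε • (Γ 0 * Γ 3) := by
    have e4 : Γ 4 = ε • (Γ 0 * Γ 1 * Γ 2 * Γ 3) := by rw [hD, smul_smul, hε, one_smul]
    nth_rw 1 [e4]
    rw [Matrix.mul_smul]
    congr 1
    simp (discharger := decide) only [mul_assoc, neg_mul, mul_neg, neg_neg, gsw S.anti, gsw' S.anti, gsq S.anti, S.anti.sq, one_mul, mul_one]
  have hc : Γ 0 * Γ 1 * (Γ 0 * Γ 2) * Γ 4 = Γ 4 * (Γ 0 * Γ 1 * (Γ 0 * Γ 2)) := by
    rw [mul_assoc, comm_two S.anti (by decide) (by decide), ← mul_assoc,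
      comm_two S.anti (by decide) (by decide), mul_assoc]
  have e := congrArg (blk P k) key
  rw [E.blk_mul S.two k hc, E.blk_mul S.two k (comm_two S.anti (by decide) (by decide)),
    E.blk_four, blk_smul, Matrix.mul_smul, mul_one] at e
  rw [← one_smul F (blk P k (Γ 0 * Γ 3)), ← hε, mul_smul, ← e, smul_smul, mul_comm]
  simp [bI, bJ, mul_comm]

theorem blk_gam_V {ε : F} (hε : ε * ε = 1) (hD : Γ 0 * Γ 1 * Γ 2 * Γ 3 = ε • Γ 4) (k : Fin 2)
    {x : Fin 5 → F} (hx : x 4 = 0) :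
    blk P k (Γ 0 * V Γ x) = quat (bI Γ P k) (bJ Γ P k) (qv (ε * bsgn k) x) := by
  simp only [V, Fin.sum_univ_five, mul_add, blk_add, Matrix.mul_smul, blk_smul, hx, zero_smul,
    add_zero, S.anti.sq, blk_one, S.blk_zero_three E hε hD k, quat, qv, Matrix.cons_val_zero,
    Matrix.cons_val_one, Matrix.cons_val, smul_smul, bI, bJ]
  module

/-- The trace of the block of the product with a frame element. -/
theorem trace_blk_gam_V (k : Fin 2) {i : Fin 5} (x : Fin 5 → F) :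
    Matrix.trace (blk P k (Γ i * V Γ x)) = 2 * x i := by
  have e : blk P k (Γ i * V Γ x) + Matrix.adjugate (blk P k (Γ i * V Γ x)) =
      (2 * x i) • (1 : M₂) := by
    rw [← E.blk_adj, adj_mul, S.adj_eq, S.adj_V, ← blk_add,
      show Γ i = V Γ (Pi.single i 1) by rw [V_single, one_smul], anticomm S.anti, blk_smul, blk_one,
      dot_comm, dot_single, mul_one]
  have e' := congrFun (congrFun e 0) 0
  simp [Matrix.adjugate_fin_two] at e'
  simpa [Matrix.trace, Fin.sum_univ_two] using e'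

/-- Interchange of the blocks by the first involution. -/
theorem blk_swap {A : M₄} (hA : A * Γ 4 = Γ 4 * A) {k l : Fin 2} (hkl : k ≠ l)
    (h : blk P k A = 1) : blk P l (Γ 0 * A * Γ 0) = 1 := by
  have hσ : ∀ m : Fin 2, (bsgn m : F) * bsgn m = 1 := fun m => by fin_cases m <;> simp [bsgn]
  have hopp : (bsgn l : F) = -bsgn k := by fin_cases k <;> fin_cases l <;> simp_all [bsgn]
  have hz : (A - 1) * (1 + (bsgn k : F) • Γ 4) = 0 := by
    refine E.blk_ext S.two ?_ ?_ ?_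
    · simp only [sub_mul, mul_add, add_mul, mul_one, one_mul, Matrix.mul_smul, Matrix.smul_mul, hA,
        mul_assoc, mul_sub]
    all_goals
      rw [E.blk_mul S.two _ (by simp only [sub_mul, mul_sub, one_mul, mul_one, hA]), blk_sub,
        blk_one, blk_add, blk_smul, blk_one, E.blk_four, smul_smul]
      fin_cases k <;> simp_all [bsgn]
  have hsw : Γ 0 * Γ 4 = -(Γ 4 * Γ 0) := S.anti.anti 0 4 (by decide)
  have hz' : (Γ 0 * A * Γ 0 - 1) * (1 + (bsgn l : F) • Γ 4) = 0 := by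
    have e1 : Γ 0 * (A - 1) = (Γ 0 * A * Γ 0 - 1) * Γ 0 := by
      simp only [sub_mul, mul_sub, mul_assoc, S.anti.sq, mul_one, one_mul]
    have e2 : (1 + (bsgn k : F) • Γ 4) * Γ 0 = Γ 0 * (1 + (bsgn l : F) • Γ 4) := by
      rw [hopp, add_mul, mul_add, one_mul, mul_one, Matrix.smul_mul, Matrix.mul_smul, hsw, smul_neg,
        neg_smul, neg_neg]
    calc (Γ 0 * A * Γ 0 - 1) * (1 + (bsgn l : F) • Γ 4)
        = (Γ 0 * A * Γ 0 - 1) * Γ 0 * (Γ 0 * (1 + (bsgn l : F) • Γ 4)) := by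
          rw [mul_assoc _ (Γ 0), ← mul_assoc (Γ 0) (Γ 0), S.anti.sq, one_mul]
      _ = Γ 0 * ((A - 1) * (1 + (bsgn k : F) • Γ 4)) * Γ 0 := by
          rw [← e1, ← e2]; simp only [mul_assoc]
      _ = 0 := by rw [hz, mul_zero, zero_mul]
  have hc : (Γ 0 * A * Γ 0 - 1) * Γ 4 = Γ 4 * (Γ 0 * A * Γ 0 - 1) := by
    simp only [sub_mul, mul_sub, one_mul, mul_one, mul_assoc, hsw, mul_neg]
    rw [← mul_assoc A, hA, mul_assoc, ← mul_assoc (Γ 0) (Γ 4), hsw]
    simp [mul_assoc]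
  have e := congrArg (blk P l) hz'
  rw [E.blk_mul S.two _ hc, blk_sub, blk_one, blk_add, blk_smul, blk_one, E.blk_four, blk_zero,
    smul_smul, hσ, one_smul, Matrix.mul_add, mul_one, ← two_smul F, smul_eq_zero,
    sub_eq_zero] at e
  exact e.resolve_left S.two

end Frame5

end CfsgLib.Geometric.SympFour
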