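import Cfsg.Agent.Lib.Geometric.SympFour.Vec

/-!
Two involutions of different squares generate a dihedral group with a central element modulo signs,
which gives a new vector.
-/

set_option autoImplicit false
set_option linter.unusedSectionVars false

namespace CfsgLib.Geometric.SympFour

open scoped Matrix
open CfsgLib.PauliFour

variable {F : Type*} [Field F]

local notation "M₄" => Matrix (Fin 2 ⊕ Fin 2) (Fin 2 ⊕ Fin 2) F
local notation "GL₄" => GL (Fin 2 ⊕ Fin 2) F

/-- The part of a vector in a plane. -/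
def pP (y e a : Fin 5 → F) : Fin 5 → F := dot a y • y + dot a e • e

/-- The part of a vector orthogonal to a plane. -/
def pU (y e a : Fin 5 → F) : Fin 5 → F := a - pP y e a

theorem dot_add_left (a b c : Fin 5 → F) : dot (a + b) c = dot a c + dot b c := by
  simp [dot, add_mul, Finset.sum_add_distrib]

theorem dot_sub_left (a b c : Fin 5 → F) : dot (a - b) c = dot a c - dot b c := by
  simp [dot, sub_mul, Finset.sum_sub_distrib]

theorem dot_zero_left (c : Fin 5 → F) : dot 0 c = 0 := by simp [dot]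

theorem dot_smul_left (k : F) (a c : Fin 5 → F) : dot (k • a) c = k * dot a c := by
  simp [dot, Finset.mul_sum, mul_assoc]

theorem dot_add_right (a b c : Fin 5 → F) : dot a (b + c) = dot a b + dot a c := by
  rw [dot_comm, dot_add_left, dot_comm b, dot_comm c]

theorem dot_sub_right (a b c : Fin 5 → F) : dot a (b - c) = dot a b - dot a c := by
  rw [dot_comm, dot_sub_left, dot_comm b, dot_comm c]

theorem dot_smul_right (k : F) (a c : Fin 5 → F) : dot a (k • c) = k * dot a c := by
  rw [dot_comm, dot_smul_left, dot_comm]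

theorem dot_refl {b : Fin 5 → F} (hb : dot b b = 1) (a a' : Fin 5 → F) :
    dot (refl b a) (refl b a') = dot a a' := by
  simp only [refl, dot_sub_left, dot_sub_right, dot_smul_left, dot_smul_right, hb, dot_comm b]
  ring

variable {Γ : Fin 5 → Matrix (Fin 2 ⊕ Fin 2) (Fin 2 ⊕ Fin 2) F}
  {M : Subgroup (GL (Fin 2 ⊕ Fin 2) F)}

theorem comm_prod (h : Anti Γ) (b a d : Fin 5 → F) :
    V Γ b * (V Γ a * V Γ d) - V Γ a * V Γ d * V Γ b =
      V Γ ((2 * dot b a) • d - (2 * dot b d) • a) := by
  have e1 : V Γ b * V Γ a = (2 * dot b a) • (1 : M₄) - V Γ a * V Γ b :=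
    eq_sub_of_add_eq (anticomm h b a)
  have e2 : V Γ b * V Γ d = (2 * dot b d) • (1 : M₄) - V Γ d * V Γ b :=
    eq_sub_of_add_eq (anticomm h b d)
  rw [← mul_assoc, e1, Matrix.sub_mul, mul_assoc (V Γ a) (V Γ b), e2, Matrix.mul_sub, Matrix.smul_mul,
    one_mul, Matrix.mul_smul, mul_one, V_sub, V_smul, V_smul, ← mul_assoc]
  abel

namespace Frame5

variable (S : Frame5 Γ M) {y e : Fin 5 → F}
include S

theorem pU_dot (hy : dot y y = 1) (he : dot e e = 1) (hye : dot y e = 0) (a : Fin 5 → F) :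
    dot (pU y e a) y = 0 ∧ dot (pU y e a) e = 0 := by
  have hey : dot e y = 0 := by rw [dot_comm]; exact hye
  constructor <;>
    simp [pU, pP, dot_sub_left, dot_add_left, dot_smul_left, hy, he, hye, hey]

theorem pU_comm (hy : dot y y = 1) (he : dot e e = 1) (hye : dot y e = 0) (a : Fin 5 → F) :
    V Γ (pU y e a) * (V Γ y * V Γ e) = V Γ y * V Γ e * V Γ (pU y e a) := by
  obtain ⟨h1, h2⟩ := S.pU_dot hy he hye a
  rw [← mul_assoc, anti_of_dot_eq_zero S.anti h1, Matrix.neg_mul, mul_assoc,
    anti_of_dot_eq_zero S.anti h2, Matrix.mul_neg, neg_neg, mul_assoc]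

theorem pP_anti (hy : dot y y = 1) (he : dot e e = 1) (hye : dot y e = 0) (a : Fin 5 → F) :
    V Γ (pP y e a) * (V Γ y * V Γ e) = -(V Γ y * V Γ e * V Γ (pP y e a)) := by
  have sy : V Γ y * V Γ y = 1 := by rw [V_sq S.anti S.two, hy, one_smul]
  have se : V Γ e * V Γ e = 1 := by rw [V_sq S.anti S.two, he, one_smul]
  have ha := anti_of_dot_eq_zero S.anti (Γ := Γ) (a := e) (b := y) (by rw [dot_comm]; exact hye)
  have k1 : V Γ y * V Γ e * V Γ y = -V Γ e := by
    rw [mul_assoc, ha, Matrix.mul_neg, ← mul_assoc, sy, one_mul]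
  have k2 : V Γ y * V Γ e * V Γ e = V Γ y := by rw [mul_assoc, se, mul_one]
  have k3 : V Γ y * (V Γ y * V Γ e) = V Γ e := by rw [← mul_assoc, sy, one_mul]
  have k4 : V Γ e * (V Γ y * V Γ e) = -V Γ y := by
    rw [← mul_assoc, ha, Matrix.neg_mul, k2]
  simp only [pP, V_add, V_smul, Matrix.add_mul, Matrix.mul_add, Matrix.smul_mul, Matrix.mul_smul,
    k1, k2, k3, k4]
  module

theorem comm_eq_zero (hy : dot y y = 1) (he : dot e e = 1) (hye : dot y e = 0) {a : Fin 5 → F}
    (h : V Γ a * (V Γ y * V Γ e) = V Γ y * V Γ e * V Γ a) : pP y e a = 0 := by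
  have h1 := S.pP_anti hy he hye a
  have h2 := S.pU_comm hy he hye a
  have ea : V Γ a = V Γ (pP y e a) + V Γ (pU y e a) := by rw [← V_add]; congr 1; simp [pU]
  rw [ea, Matrix.add_mul, Matrix.mul_add, h1, h2] at h
  have h0 : (2 : F) • (V Γ y * V Γ e * V Γ (pP y e a)) = 0 := by
    linear_combination (norm := module) -h
  have h3 := congrArg (fun z => V Γ e * (V Γ y * z)) ((smul_eq_zero.1 h0).resolve_left S.two)
  simp only [← mul_assoc, mul_zero] at h3
  rw [mul_assoc (V Γ e) (V Γ y) (V Γ y), V_sq S.anti S.two, hy, one_smul, mul_one,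
    V_sq S.anti S.two, he, one_smul, one_mul] at h3
  exact V_injective S.anti S.two (by rw [h3]; simp [V])

theorem anti_eq_zero (hy : dot y y = 1) (he : dot e e = 1) (hye : dot y e = 0) {a : Fin 5 → F}
    (h : V Γ a * (V Γ y * V Γ e) = -(V Γ y * V Γ e * V Γ a)) : pU y e a = 0 := by
  have h1 := S.pP_anti hy he hye a
  have h2 := S.pU_comm hy he hye a
  have ea : V Γ a = V Γ (pP y e a) + V Γ (pU y e a) := by rw [← V_add]; congr 1; simp [pU]
  rw [ea, Matrix.add_mul, Matrix.mul_add, h1, h2] at h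
  have h0 : (2 : F) • (V Γ y * V Γ e * V Γ (pU y e a)) = 0 := by
    linear_combination (norm := module) h
  have h3 := congrArg (fun z => V Γ e * (V Γ y * z)) ((smul_eq_zero.1 h0).resolve_left S.two)
  simp only [← mul_assoc, mul_zero] at h3
  rw [mul_assoc (V Γ e) (V Γ y) (V Γ y), V_sq S.anti S.two, hy, one_smul, mul_one,
    V_sq S.anti S.two, he, one_smul, one_mul] at h3
  exact V_injective S.anti S.two (by rw [h3]; simp [V])

/-- An element with two commutation rules: a half-turn of the dihedral group. -/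
theorem exists_half_turn [Finite F] {A B : GL (Fin 2 ⊕ Fin 2) F} (hA : A ∈ M) (hB : B ∈ M)
    (hA2 : (A : M₄) * A = 1) (hB2 : (B : M₄) * B = -1) :
    ∃ z ∈ M, (z : M₄) ≠ 1 ∧ (z : M₄) ≠ -1 ∧ ∃ ζ σ : F, (ζ = 1 ∨ ζ = -1) ∧ (σ = 1 ∨ σ = -1) ∧
      (z : M₄) * z = ζ • (1 : M₄) ∧ (z : M₄) * (A : M₄) = σ • ((A : M₄) * z) ∧
      (z : M₄) * (B : M₄) = σ • ((B : M₄) * z) := by
  classical
  haveI : Finite GL₄ := inferInstance
  have hAA : A * A = 1 := Units.ext (by simpa using hA2)
  have hBB : B * B = -1 := Units.ext (by simpa using hB2)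
  set w := A * B with hw
  have hconjA : A * w * A⁻¹ = -1 * w⁻¹ := by
    rw [hw, inv_eq_of_mul_eq_one_right hAA, mul_inv_rev, inv_eq_of_mul_eq_one_right hAA,
      show A * (A * B) * A = A * A * (B * A) by simp [mul_assoc], hAA, one_mul]
    rw [show B⁻¹ = -B from inv_eq_of_mul_eq_one_right (by rw [mul_neg, hBB, neg_neg])]
    simp
  have hconjB : B * w * B⁻¹ = -1 * w⁻¹ := by
    rw [hw, mul_assoc, mul_inv_cancel_right, mul_inv_rev, inv_eq_of_mul_eq_one_right hAA,
      show B⁻¹ = -B from inv_eq_of_mul_eq_one_right (by rw [mul_neg, hBB, neg_neg])]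
    simp
  have hex : ∃ n, 0 < n ∧ (w ^ n = 1 ∨ w ^ n = -1) :=
    ⟨orderOf w, orderOf_pos w, Or.inl (pow_orderOf_eq_one w)⟩
  obtain ⟨hn, hwn⟩ := Nat.find_spec hex
  have hAinv : A⁻¹ = A := inv_eq_of_mul_eq_one_right hAA
  have hA' : ∀ k : ℕ, A * w ^ k = (-1) ^ k * (w ^ k)⁻¹ * A := fun k => by
    have e : A * w ^ k * A⁻¹ = (-1) ^ k * (w ^ k)⁻¹ := by
      rw [← conj_pow, hconjA, (Commute.neg_one_left _).mul_pow, inv_pow]
    rw [← e, inv_mul_cancel_right]
  have hB' : ∀ k : ℕ, B * w ^ k = (-1) ^ k * (w ^ k)⁻¹ * B := fun k => by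
    have e : B * w ^ k * B⁻¹ = (-1) ^ k * (w ^ k)⁻¹ := by
      rw [← conj_pow, hconjB, (Commute.neg_one_left _).mul_pow, inv_pow]
    rw [← e, inv_mul_cancel_right]
  have hpm : ∀ (T : GL₄), T = 1 ∨ T = -1 → ∀ g : GL₄, T * g = g * T ∧ T * T = 1 := by
    intro T hT g
    rcases hT with rfl | rfl <;> simp
  have hev : Even (Nat.find hex) := by
    by_contra hodd
    obtain ⟨i, hi⟩ := Nat.not_even_iff_odd.1 hodd
    -- the two involutions would be conjugate modulo signs
    set x := w ^ i
    set T := w ^ Nat.find hex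
    set s := ((-1 : GL₄) ^ i) with hsdef
    obtain ⟨-, hT2⟩ := hpm T hwn 1
    obtain ⟨-, hs2⟩ := hpm s (neg_one_pow_eq_or GL₄ i) 1
    have cT : ∀ g, T * g = g * T := fun g => (hpm T hwn g).1
    have cs : ∀ g, s * g = g * s := fun g => (hpm s (neg_one_pow_eq_or GL₄ i) g).1
    have hx : x * w * x = T := by
      show w ^ i * w * w ^ i = w ^ Nat.find hex
      rw [← pow_succ, ← pow_add]; congr 1; omega
    have hAx : A * x⁻¹ = s * x * A := by
      have e := hA' i
      rw [← hsdef] at e
      have e' : A * x = s * x⁻¹ * A := e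
      calc A * x⁻¹ = s * s * (x * (x⁻¹ * A)) * x⁻¹ := by rw [hs2, one_mul, mul_inv_cancel_left]
        _ = s * x * (s * x⁻¹ * A) * x⁻¹ := by
            simp only [mul_assoc]; rw [← mul_assoc s x, cs x, mul_assoc]
        _ = _ := by rw [← e']; simp [mul_assoc]
    have hBeq : B = T * s * (x * A * x⁻¹) := by
      calc B = A * x⁻¹ * (x * (A * B) * x) * x⁻¹ := by
            simp only [mul_assoc, mul_inv_cancel, mul_one, inv_mul_cancel_left]
            rw [← mul_assoc, hAA, one_mul]
        _ = _ := by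
            rw [← hw, hx, hAx, mul_assoc (s * x * A), cT x⁻¹]
            rw [← mul_assoc, ← cT, mul_assoc T, mul_assoc s x A, mul_assoc]
    have hone : B * B = 1 := by
      have hK : Commute (x * A * x⁻¹) (T * s) :=
        (Commute.mul_left (cT _ : Commute T _) (cs _ : Commute s _)).symm
      rw [hBeq, hK.mul_mul_mul_comm, (show Commute s T from cs T).mul_mul_mul_comm, hT2, hs2]
      simp [mul_assoc, show ∀ g : GL₄, A * (A * g) = g from fun g => by rw [← mul_assoc, hAA, one_mul]]
    rw [hone] at hBB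
    have e := congrArg (fun g : GL₄ => (g : M₄) (.inl 0) (.inl 0)) hBB
    simp at e
    exact S.two (by linear_combination e)
  obtain ⟨i, hi⟩ := hev
  set z := w ^ i with hz
  set T := w ^ Nat.find hex with hTdef
  have hzz : z * z = T := by rw [hz, ← pow_add, hTdef, hi]
  have hz1 : z ≠ 1 ∧ z ≠ -1 := by
    constructor <;> intro h
    · exact Nat.find_min hex (m := i) (by omega) ⟨by omega, Or.inl h⟩
    · exact Nat.find_min hex (m := i) (by omega) ⟨by omega, Or.inr h⟩
  have hzinv : z⁻¹ = T * z := by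
    refine inv_eq_of_mul_eq_one_right ?_
    rw [← mul_assoc, ← (hpm T hwn z).1, mul_assoc, hzz, (hpm T hwn z).2]
  obtain ⟨c, hc, hcv⟩ : ∃ σ : F, (σ = 1 ∨ σ = -1) ∧
      (((-1 : GL₄) ^ i * T : GL₄) : M₄) = σ • 1 := by
    rcases neg_one_pow_eq_or GL₄ i with h | h <;> rcases hwn with h' | h' <;> rw [h, h']
    · exact ⟨1, Or.inl rfl, by simp⟩
    · exact ⟨-1, Or.inr rfl, by simp⟩
    · exact ⟨-1, Or.inr rfl, by simp⟩
    · exact ⟨1, Or.inl rfl, by simp⟩
  obtain ⟨ζ, hζ, hζv⟩ : ∃ σ : F, (σ = 1 ∨ σ = -1) ∧ (T : M₄) = σ • 1 := by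
    rcases hwn with h' | h' <;> rw [h']
    · exact ⟨1, Or.inl rfl, by simp⟩
    · exact ⟨-1, Or.inr rfl, by simp⟩
  have hcc : c * c = 1 := by rcases hc with r | r <;> simp [r]
  have hswap : ∀ C : GL₄, C * z = (-1) ^ i * z⁻¹ * C →
      (z : M₄) * (C : M₄) = c • ((C : M₄) * z) := by
    intro C hC
    rw [hzinv, ← mul_assoc, mul_assoc _ z C] at hC
    have e := congrArg Units.val hC
    rw [Units.val_mul, Units.val_mul, hcv, Matrix.smul_mul, one_mul, Units.val_mul] at e
    rw [e, smul_smul, hcc, one_smul]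
  exact ⟨z, pow_mem (mul_mem hA hB) i, fun h => hz1.1 (Units.ext h),
    fun h => hz1.2 (Units.ext (by simpa using h)), ζ, c, hζ, hc,
    by rw [← Units.val_mul, hzz, hζv], hswap A (hA' i), hswap B (hB' i)⟩

/-- A vector not orthogonal to a pair gives a further vector of one of three kinds. -/
theorem three_cases [Finite F] {a : Fin 5 → F} (ha : X Γ M a) (hy' : X Γ M y) (he' : X Γ M e)
    (hye : dot y e = 0) (hay : dot a y ≠ 0) :
    (∃ c, X Γ M c ∧ dot c a = 0 ∧ pU y e c = 0) ∨
    (∃ d, X Γ M d ∧ pP y e d = 0 ∧ pU y e a = dot (pU y e a) d • d) ∨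
    (∃ d, X Γ M d ∧ dot a d = 0 ∧ dot y a • pP y e d = dot y d • pP y e a ∧
      ∀ b, dot b y = 0 → dot b e = 0 → dot b a • pU y e d = dot b d • pU y e a) := by
  have h2 := S.two
  have ny := S.X_norm hy'
  have ne := S.X_norm he'
  have sy := S.X_sq hy'
  have se := S.X_sq he'
  have sa := S.X_sq ha
  obtain ⟨A, hAM, hAv⟩ := ha
  obtain ⟨gy, hgy, hgyv⟩ := hy'
  obtain ⟨ge, hge, hgev⟩ := he'
  have hey := anti_of_dot_eq_zero S.anti (Γ := Γ) (a := e) (b := y) (by rw [dot_comm]; exact hye)
  have hBB : (V Γ y * V Γ e) * (V Γ y * V Γ e) = -1 := by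
    rw [mul_assoc (V Γ y), ← mul_assoc (V Γ e), hey, Matrix.neg_mul, Matrix.mul_neg, mul_assoc,
      se, mul_one, sy]
  have hnc : V Γ a * (V Γ y * V Γ e) ≠ V Γ y * V Γ e * V Γ a := fun h => hay (by
    have e0 := congrArg (fun v => dot v y) (S.comm_eq_zero ny ne hye h)
    simpa [pP, dot_add_left, dot_smul_left, ny, dot_comm e y, hye, dot_zero_left] using e0)
  obtain ⟨z, hz, hz1, hz1', ζ, σ, hζ, hσ, hzz, hzA, hzB⟩ :=
    S.exists_half_turn hAM (mul_mem hgy hge) (by rw [hAv]; exact sa)
      (by rw [Units.val_mul, hgyv, hgev]; exact hBB)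
  rw [hAv] at hzA
  rw [Units.val_mul, hgyv, hgev] at hzB
  set B := V Γ y * V Γ e with hB
  clear_value B
  rcases hζ with rfl | rfl
  · -- an involution
    rw [one_smul] at hzz
    obtain ⟨c, hc, hzc, hc1⟩ := S.X_of_sq hz hzz hz1 hz1'
    rw [hzc] at hzA hzB
    rcases hσ with rfl | rfl
    · exfalso
      rw [one_smul] at hzA hzB
      have hca := eq_smul_of_comm S.anti h2 (b := a) (a := c)
        (smul_one_inj (F := F) (by rw [← V_sq S.anti h2, sa, one_smul])) hzA
      have hk : dot c a ≠ 0 := fun h0 => by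
        rw [h0, zero_smul] at hca
        rw [hca] at hc1
        simp [dot] at hc1
      rw [hca, V_smul, Matrix.smul_mul, Matrix.mul_smul] at hzB
      exact hnc (smul_right_injective _ hk hzB)
    · rw [neg_one_smul] at hzA hzB
      exact Or.inl ⟨c, hc, dot_eq_zero_of_anti S.anti h2 hzA, S.anti_eq_zero ny ne hye (by rw [← hB]; exact hzB)⟩
  rw [neg_one_smul] at hzz
  rcases hσ with rfl | rfl
  · -- the product with the element of square minus one is a vector
    rw [one_smul] at hzA hzB
    have hq1 : ∀ τ : F, (z : M₄) * B ≠ τ • 1 := by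
      intro τ h
      have e1 : (z : M₄) = -(τ • B) := by
        have := congrArg (· * B) h
        simp only [mul_assoc, hBB, Matrix.smul_mul, one_mul, Matrix.mul_neg, mul_one] at this
        rw [← this, neg_neg]
      have hτ : τ ≠ 0 := fun h0 => by
        rw [h0, zero_smul, neg_zero] at e1
        rw [e1, zero_mul] at hzz
        have := congrFun (congrFun hzz (.inl 0)) (.inl 0)
        simp at this
      rw [e1, Matrix.neg_mul, Matrix.mul_neg, Matrix.smul_mul, Matrix.mul_smul, neg_inj] at hzA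
      exact hnc (smul_right_injective _ hτ hzA).symm
    obtain ⟨d, hd, hqd, hd1⟩ := S.X_of_sq (g := z * (gy * ge))
      (mul_mem hz (mul_mem hgy hge))
      (by
        simp only [Units.val_mul, hgyv, hgev, ← hB]
        rw [mul_assoc (z : M₄) B, ← mul_assoc B (z : M₄), ← hzB, mul_assoc (z : M₄) B B, hBB,
          Matrix.mul_neg, mul_one, Matrix.mul_neg, hzz, neg_neg])
      (by simp only [Units.val_mul, hgyv, hgev, ← hB]; simpa using hq1 1)
      (by simp only [Units.val_mul, hgyv, hgev, ← hB]; simpa using hq1 (-1))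
    simp only [Units.val_mul, hgyv, hgev, ← hB] at hqd
    have hdB : V Γ d * B = B * V Γ d := by rw [← hqd, ← mul_assoc B, ← hzB]
    have hdP := S.comm_eq_zero ny ne hye (a := d) (by rw [← hB]; exact hdB)
    refine Or.inr (Or.inl ⟨d, hd, hdP, ?_⟩)
    have ea : V Γ a = V Γ (pP y e a) + V Γ (pU y e a) := by rw [← V_add]; congr 1; simp [pU]
    have hP := S.pP_anti ny ne hye a
    have hU := S.pU_comm ny ne hye a
    rw [← hB] at hP hU
    have hor : dot d (pP y e a) = 0 := by
      have h1 : dot d y = 0 ∧ dot d e = 0 := by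
        constructor
        · have e0 := congrArg (fun v => dot v y) hdP
          simpa [pP, dot_add_left, dot_smul_left, ny, dot_comm e y, hye, dot_zero_left] using e0
        · have e0 := congrArg (fun v => dot v e) hdP
          simpa [pP, dot_add_left, dot_smul_left, ne, hye, dot_zero_left] using e0
      simp [pP, dot_add_right, dot_smul_right, h1.1, h1.2]
    have hdq := anti_of_dot_eq_zero S.anti hor
    have hz' : (z : M₄) = -(V Γ d * B) := by
      rw [← hqd, mul_assoc, hBB, Matrix.mul_neg, mul_one, neg_neg]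
    have hmain : V Γ a * (V Γ d * B) = V Γ d * B * V Γ a := by
      rw [hz', Matrix.neg_mul, Matrix.mul_neg, neg_inj] at hzA
      exact hzA.symm
    have hBP : B * V Γ (pP y e a) = -(V Γ (pP y e a) * B) := by rw [hP, neg_neg]
    have hcm : V Γ (pU y e a) * V Γ d * B = V Γ d * V Γ (pU y e a) * B := by
      rw [ea, add_mul, mul_add, mul_assoc (V Γ d) B, hBP, mul_assoc (V Γ d) B, ← hU, Matrix.mul_neg,
        ← mul_assoc (V Γ d), hdq, Matrix.neg_mul, neg_neg, ← mul_assoc, ← mul_assoc, ← mul_assoc] at hmain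
      exact add_left_cancel hmain
    have hcm' := congrArg (· * B) hcm
    simp only [mul_assoc, hBB, Matrix.mul_neg, mul_one, neg_inj] at hcm'
    exact eq_smul_of_comm S.anti h2 hd1 hcm'
  · -- the product with the involution is a vector
    rw [neg_one_smul] at hzA hzB
    have hAz : V Γ a * (z : M₄) = -((z : M₄) * V Γ a) := by rw [hzA, neg_neg]
    have hq1 : ∀ τ : F, V Γ a * (z : M₄) ≠ τ • 1 := by
      intro τ h
      have e1 : (z : M₄) = τ • V Γ a := by
        have := congrArg (V Γ a * ·) h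
        simp only [← mul_assoc, sa, one_mul, Matrix.mul_smul, mul_one] at this
        exact this
      have e2 := hzA
      rw [e1, Matrix.smul_mul, Matrix.mul_smul, sa] at e2
      have hτ : (2 * τ) • (1 : M₄) = (0 : F) • 1 := by
        rw [zero_smul]
        linear_combination (norm := module) e2
      rw [e1, (mul_eq_zero.1 (smul_one_inj hτ)).resolve_left h2, zero_smul, zero_mul] at hzz
      have := congrFun (congrFun hzz (.inl 0)) (.inl 0)
      simp at this
    obtain ⟨d, hd, hqd, hd1⟩ := S.X_of_sq (g := A * z) (mul_mem hAM hz)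
      (by
        simp only [Units.val_mul, hAv]
        rw [mul_assoc (V Γ a), ← mul_assoc (z : M₄), hzA, Matrix.neg_mul, Matrix.mul_neg,
          mul_assoc (V Γ a) (z : M₄), hzz, Matrix.mul_neg, mul_one, Matrix.mul_neg, sa, neg_neg])
      (by simpa [hAv] using hq1 1) (by simpa [hAv] using hq1 (-1))
    rw [Units.val_mul, hAv] at hqd
    have hz' : (z : M₄) = V Γ a * V Γ d := by rw [← hqd, ← mul_assoc, sa, one_mul]
    have had : V Γ a * V Γ d = -(V Γ d * V Γ a) := by
      rw [← hz', ← hqd, mul_assoc, hzA, Matrix.mul_neg, ← mul_assoc, sa, one_mul, neg_neg]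
    rw [hz'] at hzB
    have ea : V Γ a = V Γ (pP y e a) + V Γ (pU y e a) := by rw [← V_add]; congr 1; simp [pU]
    have ed : V Γ d = V Γ (pP y e d) + V Γ (pU y e d) := by rw [← V_add]; congr 1; simp [pU]
    have hPa := S.pP_anti ny ne hye a
    have hPd := S.pP_anti ny ne hye d
    have hUa := S.pU_comm ny ne hye a
    have hUd := S.pU_comm ny ne hye d
    rw [← hB] at hPa hPd hUa hUd
    have hsum : V Γ (pP y e a) * V Γ (pP y e d) + V Γ (pU y e a) * V Γ (pU y e d) = 0 := by
      have t1 : V Γ a * V Γ d * B = (V Γ a * V Γ d) * B := rfl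
      have e1 : B * (V Γ a * V Γ d) =
          (-V Γ (pP y e a) + V Γ (pU y e a)) * (-V Γ (pP y e d) + V Γ (pU y e d)) * B := by
        have f : ∀ v, B * V Γ (pP y e v) = -(V Γ (pP y e v) * B) := fun v => by
          rw [hB, S.pP_anti ny ne hye v, neg_neg]
        have f' : ∀ v, B * V Γ (pU y e v) = V Γ (pU y e v) * B := fun v => by
          rw [hB, S.pU_comm ny ne hye v]
        have g1 : B * V Γ a = (-V Γ (pP y e a) + V Γ (pU y e a)) * B := by
          rw [ea, Matrix.mul_add, Matrix.add_mul, Matrix.neg_mul, f, f']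
        have g2 : B * V Γ d = (-V Γ (pP y e d) + V Γ (pU y e d)) * B := by
          rw [ed, Matrix.mul_add, Matrix.add_mul, Matrix.neg_mul, f, f']
        rw [← mul_assoc, g1, mul_assoc, g2, ← mul_assoc]
      rw [e1, ea, ed, ← Matrix.neg_mul] at hzB
      have h3 := congrArg (· * B) hzB
      simp only [mul_assoc, hBB, Matrix.mul_neg, mul_one, Matrix.neg_mul, neg_inj, neg_neg] at h3
      simp only [Matrix.add_mul, Matrix.mul_add, Matrix.neg_mul, Matrix.mul_neg, neg_neg] at h3
      have : (2 : F) • (V Γ (pP y e a) * V Γ (pP y e d) + V Γ (pU y e a) * V Γ (pU y e d)) = 0 := by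
        first | linear_combination (norm := module) h3 | linear_combination (norm := module) -h3
      exact (smul_eq_zero.1 this).resolve_left h2
    -- two consequences of the vanishing
    have hPdot : ∀ b v, dot b y = 0 → dot b e = 0 → dot b (pP y e v) = 0 := fun b v h h' => by
      simp [pP, dot_add_right, dot_smul_right, h, h']
    have hUdot : ∀ v, dot y (pU y e v) = 0 := fun v => by
      rw [dot_comm]; exact (S.pU_dot ny ne hye v).1
    have hcomb : ∀ b, dot b (pP y e a) • pP y e d - dot b (pP y e d) • pP y e a +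
        (dot b (pU y e a) • pU y e d - dot b (pU y e d) • pU y e a) = 0 := by
      intro b
      have e1 := comm_prod S.anti (Γ := Γ) b (pP y e a) (pP y e d)
      have e2 := comm_prod S.anti (Γ := Γ) b (pU y e a) (pU y e d)
      have e3 : V Γ ((2 * dot b (pP y e a)) • pP y e d - (2 * dot b (pP y e d)) • pP y e a +
          ((2 * dot b (pU y e a)) • pU y e d - (2 * dot b (pU y e d)) • pU y e a)) = V Γ 0 := by
        rw [V_add, ← e1, ← e2, show (V Γ (0 : Fin 5 → F)) = 0 by simp [V],
          sub_add_sub_comm, ← Matrix.mul_add, ← Matrix.add_mul, hsum]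
        simp
      have e4 := V_injective S.anti h2 e3
      refine smul_right_injective _ h2 ?_
      linear_combination (norm := module) e4
    have hspl : ∀ b v : Fin 5 → F, dot b v = dot b (pP y e v) + dot b (pU y e v) := fun b v => by
      rw [← dot_add_right]; congr 1; simp [pU]
    refine Or.inr (Or.inr ⟨d, hd, dot_eq_zero_of_anti S.anti h2 had, ?_, fun b hb hb' => ?_⟩)
    · have e4 := hcomb y
      rw [hspl y a, hspl y d]
      simp only [hUdot, zero_smul, sub_zero, add_zero] at e4 ⊢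
      exact sub_eq_zero.1 e4
    · have e4 := hcomb b
      rw [hspl b a, hspl b d]
      simp only [hPdot b _ hb hb', zero_smul, sub_zero, zero_add] at e4 ⊢
      exact sub_eq_zero.1 e4

end Frame5

end CfsgLib.Geometric.SympFour
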