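import Mathlib.GroupTheory.Perm.Fin
import Mathlib.GroupTheory.SpecificGroups.Alternating
import Mathlib.Tactic.FinCases

/-!
Two properties of the groups of degree at most five that occur as images in `PSL_2`.
-/

set_option autoImplicit false

namespace CfsgLib.Geometric.SympFour

open Equiv

/-- Orders are at most five, and few elements avoid all order three commutators. -/
structure SmallImage (H : Type*) [Group H] : Prop where
  orders : ∀ x : H, x ^ 3 = 1 ∨ x ^ 4 = 1 ∨ x ^ 5 = 1
  four : ∃ s : Finset H, s.card ≤ 4 ∧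
    ∀ x : H, (x ^ 3 = 1 → x = 1) → (∀ y : H, (y * x * y⁻¹ * x⁻¹) ^ 3 = 1 → (y * x * y⁻¹ * x⁻¹) = 1) → x ∈ s

theorem smallImage_of_decide {H : Type*} [Group H] [Fintype H] [DecidableEq H]
    (h1 : ∀ x : H, x ^ 3 = 1 ∨ x ^ 4 = 1 ∨ x ^ 5 = 1)
    (h2 : (Finset.univ.filter fun x : H => (x ^ 3 = 1 → x = 1) ∧
      ∀ y : H, (y * x * y⁻¹ * x⁻¹) ^ 3 = 1 → (y * x * y⁻¹ * x⁻¹) = 1).card ≤ 4) : SmallImage H where
  orders := h1
  four := ⟨_, h2, fun x a b => Finset.mem_filter.2 ⟨Finset.mem_univ _, a, b⟩⟩

theorem smallImage_alt_four : SmallImage (alternatingGroup (Fin 4)) :=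
  smallImage_of_decide (by decide +kernel) (by decide +kernel)

theorem smallImage_perm_four : SmallImage (Perm (Fin 4)) :=
  smallImage_of_decide (by decide +kernel) (by decide +kernel)

set_option maxRecDepth 100000 in
set_option maxHeartbeats 4000000 in
theorem smallImage_alt_five : SmallImage (alternatingGroup (Fin 5)) :=
  smallImage_of_decide (by decide +kernel) (by decide +kernel)

theorem SmallImage.of_equiv {G H : Type*} [Group G] [Group H] (e : G ≃* H) (h : SmallImage H) :
    SmallImage G where
  orders x := by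
    rcases h.orders (e x) with a | a | a
    · exact Or.inl (e.injective (by rw [map_pow, a, map_one]))
    · exact Or.inr (Or.inl (e.injective (by rw [map_pow, a, map_one])))
    · exact Or.inr (Or.inr (e.injective (by rw [map_pow, a, map_one])))
  four := by
    classical
    obtain ⟨s, hs, hmem⟩ := h.four
    refine ⟨s.image e.symm, Finset.card_image_le.trans hs, fun x a b => ?_⟩
    refine Finset.mem_image.2 ⟨e x, hmem _ (fun hx => ?_) (fun y hy => ?_), e.symm_apply_apply x⟩
    · rw [a (e.injective (by rw [map_pow, hx, map_one])), map_one]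
    · obtain ⟨y, rfl⟩ := e.surjective y
      rw [← map_inv, ← map_inv, ← map_mul, ← map_mul, ← map_mul] at hy ⊢
      rw [b y (e.injective (by rw [map_pow, hy, map_one])), map_one]

end CfsgLib.Geometric.SympFour
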