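import Cfsg.Agent.Lib.Geometric.SympFour.Blocks
import Cfsg.Agent.Lib.Geometric.SympFour.FiniteFacts
import Cfsg.Agent.Lib.SL2.Dickson.Classification
import Cfsg.Agent.Lib.SL2.Dickson.Index
import Cfsg.Agent.Lib.ClassicalLinear.Simple

/-!
The subgroups of `SL_2(p)` containing a quaternion group and an element of order three permuting
its axes.
-/

set_option autoImplicit false
set_option linter.unusedSectionVars false

namespace CfsgLib.Geometric.SympFour

open Matrix
open scoped MatrixGroups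
open CfsgLib.SL2 CfsgLib.SL2.Dickson

variable {F : Type*} [Field F] [Fintype F]

local notation "M₂" => Matrix (Fin 2) (Fin 2) F
local notation "SL₂" => Matrix.SpecialLinearGroup (Fin 2) F

/-- The hypotheses on such a subgroup. -/
structure QSub (G : Subgroup (Matrix.SpecialLinearGroup (Fin 2) F)) (η : F) : Prop where
  sign : η * η = 1
  basis : ∃ I J n : Matrix.SpecialLinearGroup (Fin 2) F, I ∈ G ∧ J ∈ G ∧ n ∈ G ∧
    QBasis (I : Matrix (Fin 2) (Fin 2) F) (J : Matrix (Fin 2) (Fin 2) F) ∧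
    (n : Matrix (Fin 2) (Fin 2) F) = quat (I : Matrix (Fin 2) (Fin 2) F) (J : Matrix (Fin 2) (Fin 2) F)
      ![-(2 : F)⁻¹, -(η / 2), -(η / 2), -(2 : F)⁻¹]

theorem tr_eq_trace (g : SL₂) : tr g = Matrix.trace (g : M₂) := by
  simp [tr, Matrix.trace, Fin.sum_univ_two]

theorem zero_of_neg {G : Subgroup SL₂} {η : F} (h : QSub G η) :
    Subgroup.center SL₂ ≤ G := by
  obtain ⟨I, J, n, hI, -, -, hQ, -⟩ := h.basis
  intro z hz
  rcases (SL2.mem_center_iff z).1 hz with rfl | rfl
  · exact one_mem G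
  · have : I * I = -1 := Subtype.ext (by simpa using hQ.II)
    exact this ▸ mul_mem hI hI

/-- The group is everything, or is finite of order prime to `p` with one of three images. -/
theorem range_cases {p : ℕ} (hp : p.Prime) (hcard : Fintype.card F = p)
    {G : Subgroup SL₂} {η : F} (h : QSub G η) :
    G = ⊤ ∨ (¬ p ∣ Nat.card G ∧ ¬ 9 ∣ Nat.card G ∧ Nat.card G = 2 * (zG G).index ∧
      SmallImage (G ⧸ zG G)) := by
  classical
  haveI : Fact p.Prime := ⟨hp⟩
  haveI : CharP F p := charP_of_card_eq_prime (by rw [hcard])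
  obtain ⟨I, J, n, hI, hJ, hn, hQ, hnq⟩ := h.basis
  have h2 := hQ.two
  have hZ := zero_of_neg h
  have hc : Nat.card G = 2 * (zG G).index := by
    rw [card_eq_mul_index hZ, center_card_of_odd h2]
  have hSL : Nat.card SL₂ = p * (p ^ 2 - 1) := by
    rw [SL2.card_SL, Nat.card_eq_fintype_card, hcard]
  have hle : Nat.card G ≤ p * (p ^ 2 - 1) := hSL ▸ Subgroup.card_le_card_group G
  have htop : Nat.card G = p * (p ^ 2 - 1) → G = ⊤ := fun e =>
    Subgroup.eq_top_of_card_eq G (e.trans hSL.symm)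
  have hp3 : 3 ≤ p := by
    rcases hp.two_le.lt_or_eq with e | e
    · omega
    · exact absurd (by rw [← Nat.cast_ofNat, e, CharP.cast_eq_zero]) h2
  have small : ∀ N : ℕ, (zG G).index = N → SmallImage (G ⧸ zG G) → (N = 12 ∨ N = 24 ∨ N = 60) →
      G = ⊤ ∨ (¬ p ∣ Nat.card G ∧ ¬ 9 ∣ Nat.card G ∧ Nat.card G = 2 * (zG G).index ∧
        SmallImage (G ⧸ zG G)) := by
    intro N hN hS hcases
    by_cases hdvd : p ∣ Nat.card G
    · left
      refine htop ?_
      have hdvd' : p ∣ 2 * N := by rwa [hc, hN] at hdvd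
      rw [hc, hN] at hle ⊢
      have : p ≤ 5 := by
        by_contra hlt
        have hdvd'' : p ∣ 2 * (2 * (2 * (2 * (3 * 5)))) := hdvd'.trans
          (by rcases hcases with r | r | r <;> rw [r] <;> norm_num)
        rcases (Nat.Prime.dvd_mul hp).1 hdvd'' with d | d
        · have := Nat.le_of_dvd (by norm_num) d; omega
        rcases (Nat.Prime.dvd_mul hp).1 d with d | d
        · have := Nat.le_of_dvd (by norm_num) d; omega
        rcases (Nat.Prime.dvd_mul hp).1 d with d | d
        · have := Nat.le_of_dvd (by norm_num) d; omega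
        rcases (Nat.Prime.dvd_mul hp).1 d with d | d
        · have := Nat.le_of_dvd (by norm_num) d; omega
        rcases (Nat.Prime.dvd_mul hp).1 d with d | d
        · have := Nat.le_of_dvd (by norm_num) d; omega
        · have := Nat.le_of_dvd (by norm_num) d; omega
      interval_cases p
      · rcases hcases with r | r | r <;> rw [r] at hle ⊢
        all_goals omega
      · norm_num at hp
      · rcases hcases with r | r | r <;> rw [r] at hle hdvd' ⊢
        all_goals omega
    · refine Or.inr ⟨hdvd, ?_, hc, hS⟩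
      rw [hc, hN]
      rcases hcases with r | r | r <;> rw [r] <;> norm_num
  rcases classification hZ with hB | hT | ⟨hi, ⟨e⟩⟩ | ⟨hi, ⟨e⟩⟩ | ⟨hi, ⟨e⟩⟩ | ⟨R, k, hR3, hidx, hk⟩
  · -- a common fixed line is impossible
    exfalso
    obtain ⟨u, hu⟩ := hB
    have a := mem_borel.1 (hu I hI)
    have b := mem_borel.1 (hu J hJ)
    set I' := (((u * I * u⁻¹ : SL₂)) : M₂)
    set J' := (((u * J * u⁻¹ : SL₂)) : M₂)
    have hJI : J * I = -(I * J) := Subtype.ext (by simpa using hQ.JI)
    have e : J' * I' = -(I' * J') := by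
      have e1 : (u * J * u⁻¹) * (u * I * u⁻¹) = -((u * I * u⁻¹) * (u * J * u⁻¹)) := by
        calc (u * J * u⁻¹) * (u * I * u⁻¹) = u * (J * I) * u⁻¹ := by group
          _ = u * -(I * J) * u⁻¹ := by rw [hJI]
          _ = -(u * (I * J) * u⁻¹) := by simp
          _ = _ := by congr 1; group
      have e2 := congrArg Subtype.val e1
      rw [Matrix.SpecialLinearGroup.coe_mul, Matrix.SpecialLinearGroup.coe_neg,
        Matrix.SpecialLinearGroup.coe_mul] at e2
      exact e2
    have e00 := congrFun (congrFun e 0) 0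
    simp [Matrix.mul_apply, a, b] at e00
    have hI0 : I' 0 0 ≠ 0 := fun h0 => by
      have := det_eq (u * I * u⁻¹)
      simp [I'] at h0
      simp [a, h0, I'] at this
    have hJ0 : J' 0 0 ≠ 0 := fun h0 => by
      have := det_eq (u * J * u⁻¹)
      simp [J'] at h0
      simp [b, h0, J'] at this
    exact mul_ne_zero h2 (mul_ne_zero hI0 hJ0) (by linear_combination e00)
  · -- no normalised torus
    exfalso
    obtain ⟨g, hg, -, hN⟩ := hT
    have hcomm : ∀ m : SL₂, m ∈ G →
        ((m : M₂) * ((g : SL₂) : M₂) * Matrix.adjugate (m : M₂)) * ((g : SL₂) : M₂) =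
          ((g : SL₂) : M₂) * ((m : M₂) * ((g : SL₂) : M₂) * Matrix.adjugate (m : M₂)) := by
      intro m hm
      have hmn : (⟨m, hm⟩ : G) ∈ Subgroup.normalizer (cG G g : Set G) := hN ▸ Subgroup.mem_top _
      have h1 := mem_cG.1 ((Subgroup.mem_normalizer_iff.1 hmn g).1 (self_mem_cG g))
      have h1' := congrArg Subtype.val h1
      simpa [Matrix.SpecialLinearGroup.coe_inv] using h1'
    obtain ⟨v, hv⟩ := hQ.surjective ((g : SL₂) : M₂)
    have key : ∀ (m : SL₂) (y : Fin 4 → F), m ∈ G → quat (I : M₂) (J : M₂) y = (m : M₂) →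
        qmul (qmul (qmul y v) (qconj y)) v = qmul v (qmul (qmul y v) (qconj y)) := by
      intro m y hm hy
      have e := hcomm m hm
      rw [← hy, ← hv, hQ.adjugate_quat, hQ.mul, hQ.mul, hQ.mul, hQ.mul] at e
      exact hQ.injective e
    obtain ⟨-, bI, bJ, -⟩ := QBasis.quat_basis (I := (I : M₂)) (J := (J : M₂))
    have kI := key I _ hI bI
    have kJ := key J _ hJ bJ
    have kn := key n _ hn hnq.symm
    have eI2 := congrFun kI 2; have eI3 := congrFun kI 3
    have eJ1 := congrFun kJ 1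
    simp [qmul, qconj] at eI2 eI3 eJ1
    have h4 : (2 : F) * 2 ≠ 0 := mul_ne_zero h2 h2
    have p13 : v 1 * v 3 = 0 :=
      (mul_eq_zero.1 (show ((2 : F) * 2) * (v 1 * v 3) = 0 by
        first | linear_combination eI2 | linear_combination -eI2)).resolve_left h4
    have p12 : v 1 * v 2 = 0 :=
      (mul_eq_zero.1 (show ((2 : F) * 2) * (v 1 * v 2) = 0 by
        first | linear_combination eI3 | linear_combination -eI3)).resolve_left h4
    have p23 : v 2 * v 3 = 0 :=
      (mul_eq_zero.1 (show ((2 : F) * 2) * (v 2 * v 3) = 0 by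
        first | linear_combination eJ1 | linear_combination -eJ1)).resolve_left h4
    have c1 := congrFun kn 1; have c2 := congrFun kn 2; have c3 := congrFun kn 3
    simp [qmul, qconj] at c1 c2 c3
    have hη := h.sign
    field_simp at c1 c2 c3
    have hη0 : η ≠ 0 := fun h0 => by rw [h0, mul_zero] at hη; exact zero_ne_one hη
    have h8 : (2 : F) ^ 3 ≠ 0 := pow_ne_zero _ h2
    have fin : ∀ a b : F, b ≠ 0 → (2 : F) ^ 3 * (b * a ^ 2) = 0 → a = 0 := fun a b hb e =>
      (pow_eq_zero_iff two_ne_zero).1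
        ((mul_eq_zero.1 ((mul_eq_zero.1 e).resolve_left h8)).resolve_left hb)
    have hz : v 1 = 0 ∧ v 2 = 0 ∧ v 3 = 0 := by
      rcases mul_eq_zero.1 p12 with r | r
      · rcases mul_eq_zero.1 p23 with r' | r'
        · rw [r, r'] at c2
          exact ⟨r, r', fin _ η hη0 (by linear_combination -c2)⟩
        · rw [r, r'] at c1
          exact ⟨r, fin _ η hη0 (by linear_combination -c1), r'⟩
      · rcases mul_eq_zero.1 p13 with r' | r'
        · rw [r, r'] at c2
          exact ⟨r', r, fin _ η hη0 (by linear_combination -c2)⟩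
        · rw [r, r'] at c3
          exact ⟨fin _ 1 one_ne_zero (by linear_combination -c3 - 4 * v 1 ^ 2 * hη), r, r'⟩
    refine hg (mem_zG.2 ?_)
    rw [SL2.mem_center_iff_isScalarMat, isScalarMat_iff]
    exact ⟨v 0, by rw [← hv, quat, hz.1, hz.2.1, hz.2.2]; simp⟩
  · exact small 12 hi (SmallImage.of_equiv e smallImage_alt_four) (Or.inl rfl)
  · exact small 24 hi (SmallImage.of_equiv e smallImage_perm_four) (Or.inr (Or.inl rfl))
  · exact small 60 hi (SmallImage.of_equiv e smallImage_alt_five) (Or.inr (Or.inr rfl))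
  · left
    have hR : Nat.card R = p := by
      refine le_antisymm ((Nat.card_le_card_of_injective (Subtype.val : R → F)
        Subtype.val_injective).trans_eq (by rw [Nat.card_eq_fintype_card, hcard])) ?_
      let φ : Fin p → R := fun j => ⟨((j : ℕ) : F), natCast_mem R _⟩
      have hφ : Function.Injective φ := fun a b hab => Fin.ext (by
        have := congrArg Subtype.val hab
        simp only [φ] at this
        exact CharP.natCast_injOn_Iio F p a.2 b.2 this)
      simpa using Nat.card_le_card_of_injective φ hφ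
    rw [hR] at hidx hk
    refine htop ?_
    rcases hk with ⟨hk, -⟩ | ⟨hk, -⟩
    · exfalso
      rw [hc, hidx, hk] at hle
      have : p ^ 2 - 1 = (p - 1) * (p + 1) := by
        rw [mul_comm, ← Nat.sq_sub_sq, one_pow]
      rw [this] at hle
      have : 0 < p * (p - 1) * (p + 1) := Nat.mul_pos (Nat.mul_pos hp.pos (by omega)) (by omega)
      nlinarith
    · rw [hc, hidx, show p ^ 2 - 1 = (p + 1) * (2 * k) by rw [hk, ← Nat.sq_sub_sq, one_pow]]
      ring

/-- A non-central element with trace `±2` has order divisible by `p`. -/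
theorem tr_sq_ne_four {p : ℕ} (hp : p.Prime) (hcard : Fintype.card F = p) {G : Subgroup SL₂}
    (hZ : Subgroup.center SL₂ ≤ G) (hdvd : ¬ p ∣ Nat.card G) (g : G) (hg : g ∉ zG G) :
    tr (g : SL₂) ^ 2 ≠ 4 := by
  haveI : Fact p.Prime := ⟨hp⟩
  haveI : CharP F p := charP_of_card_eq_prime (by rw [hcard])
  intro ht
  obtain ⟨u, hu1, hup, -, -⟩ := exists_pElement p hZ ht hg
  exact hdvd (orderOf_eq_prime hup hu1 ▸ orderOf_dvd_natCard u)

/-- The traces of the elements in the small case. -/
theorem trace_root {G : Subgroup SL₂} (hS : SmallImage (G ⧸ zG G)) (g : G) (hg : g ∉ zG G) :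
    let t := tr (g : SL₂) ^ 2
    t * (t - 1) * (t - 2) * (t * t - 3 * t + 1) = 0 := by
  intro t
  set τ := tr (g : SL₂) with hτ
  have h2 : ((g : SL₂) : M₂) * ((g : SL₂) : M₂) = τ • ((g : SL₂) : M₂) - 1 := mul_self_eq _
  have hnotsc : ∀ a b : F, a • ((g : SL₂) : M₂) = b • (1 : M₂) → a = 0 := by
    intro a b hab
    by_contra ha
    refine hg (mem_zG.2 ?_)
    rw [SL2.mem_center_iff_isScalarMat, isScalarMat_iff]
    exact ⟨a⁻¹ * b, by rw [mul_smul, ← hab, smul_smul, inv_mul_cancel₀ ha, one_smul]⟩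
  have hscal : ∀ m, (g : G ⧸ zG G) ^ m = 1 → ∃ c : F, ((g : SL₂) : M₂) ^ m = c • 1 := by
    intro m hm
    rw [← QuotientGroup.mk_pow, QuotientGroup.eq_one_iff, mem_zG,
      SL2.mem_center_iff_isScalarMat, isScalarMat_iff] at hm
    obtain ⟨c, hc⟩ := hm
    exact ⟨c, by simpa using hc⟩
  have pw : ∀ a b : F, (a • ((g : SL₂) : M₂) - b • 1) * ((g : SL₂) : M₂) =
      (a * τ - b) • ((g : SL₂) : M₂) - a • 1 := by
    intro a b
    rw [sub_mul, Matrix.smul_mul, h2, Matrix.smul_mul, one_mul]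
    module
  have g2 : ((g : SL₂) : M₂) ^ 2 = τ • ((g : SL₂) : M₂) - (1 : F) • 1 := by rw [sq, h2, one_smul]
  have g3 : ((g : SL₂) : M₂) ^ 3 = (τ * τ - 1) • ((g : SL₂) : M₂) - τ • 1 := by
    rw [pow_succ, g2, pw]
  have g4 : ((g : SL₂) : M₂) ^ 4 = ((τ * τ - 1) * τ - τ) • ((g : SL₂) : M₂) - (τ * τ - 1) • 1 := by
    rw [pow_succ, g3, pw]
  have g5 : ((g : SL₂) : M₂) ^ 5 = (((τ * τ - 1) * τ - τ) * τ - (τ * τ - 1)) • ((g : SL₂) : M₂) -
      ((τ * τ - 1) * τ - τ) • 1 := by
    rw [pow_succ, g4, pw]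
  rcases hS.orders (g : G ⧸ zG G) with h | h | h <;> obtain ⟨c, hc⟩ := hscal _ h
  · rw [g3, sub_eq_iff_eq_add, ← add_smul] at hc
    have := hnotsc _ _ hc
    simp only [t]; linear_combination (τ ^ 2 * (τ ^ 2 - 2) * (τ ^ 4 - 3 * τ ^ 2 + 1)) * this
  · rw [g4, sub_eq_iff_eq_add, ← add_smul] at hc
    have := hnotsc _ _ hc
    simp only [t]; linear_combination (τ * (τ ^ 2 - 1) * (τ ^ 4 - 3 * τ ^ 2 + 1)) * this
  · rw [g5, sub_eq_iff_eq_add, ← add_smul] at hc
    have := hnotsc _ _ hc
    simp only [t]; linear_combination (τ ^ 2 * (τ ^ 2 - 1) * (τ ^ 2 - 2)) * this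

end CfsgLib.Geometric.SympFour
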