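import Cfsg.Agent.Lib.Geometric.SympFour.Local
import Cfsg.Agent.Lib.Geometric.SympFour.Dihedral

/-!
A group that contains a frame and a vector halfway between four frame vectors contains all
isometries.
-/

set_option autoImplicit false
set_option linter.unusedSectionVars false

namespace CfsgLib.Geometric.SympFour

open scoped Matrix
open CfsgLib.PauliFour

variable {F : Type*} [Field F]

local notation "M₄" => Matrix (Fin 2 ⊕ Fin 2) (Fin 2 ⊕ Fin 2) F
local notation "GL₄" => GL (Fin 2 ⊕ Fin 2) F

theorem exists_even (i : Fin 5) :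
    ∃ σ : Equiv.Perm (Fin 5), Equiv.Perm.sign σ = 1 ∧ σ 4 = i := by
  fin_cases i
  · exact ⟨Equiv.swap 4 0 * Equiv.swap 1 2, by simp [Equiv.Perm.sign_swap], by decide⟩
  · exact ⟨Equiv.swap 4 1 * Equiv.swap 0 2, by simp [Equiv.Perm.sign_swap], by decide⟩
  · exact ⟨Equiv.swap 4 2 * Equiv.swap 0 1, by simp [Equiv.Perm.sign_swap], by decide⟩
  · exact ⟨Equiv.swap 4 3 * Equiv.swap 0 1, by simp [Equiv.Perm.sign_swap], by decide⟩
  · exact ⟨1, by simp, rfl⟩

theorem eq_or_of_dvd_cast {p : ℕ} [CharP F p] {n : ℕ} (h : (n : F) = 0) : p ∣ n :=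
  (CharP.cast_eq_zero_iff F p n).1 h

theorem pP_apply (y e a : Fin 5 → F) (k : Fin 5) : pP y e a k = dot a y * y k + dot a e * e k := rfl

theorem pU_apply (y e a : Fin 5 → F) (k : Fin 5) :
    pU y e a k = a k - (dot a y * y k + dot a e * e k) := rfl

theorem map_refl {K : Type*} [Field K] (φ : K →+* F) (b v : Fin 5 → K) :
    φ ∘ refl b v = refl (φ ∘ b) (φ ∘ v) := by
  funext k
  simp [refl, dot, map_sum, map_ofNat]

variable {Γ : Fin 5 → Matrix (Fin 2 ⊕ Fin 2) (Fin 2 ⊕ Fin 2) F}
  {M : Subgroup (GL (Fin 2 ⊕ Fin 2) F)}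

local instance factFive : Fact (Nat.Prime 5) := ⟨by norm_num⟩

local instance factSeven : Fact (Nat.Prime 7) := ⟨by norm_num⟩

local instance factEleven : Fact (Nat.Prime 11) := ⟨by norm_num⟩

namespace Frame5

variable (S : Frame5 Γ M)
include S

/-- Sign changes preserve the set. -/
theorem X_signs {v w : Fin 5 → F} (hv : X Γ M v) (h : ∀ k, w k = v k ∨ w k = -v k) :
    X Γ M w := by
  classical
  have key : ∀ s : Finset (Fin 5), X Γ M (fun k => if k ∈ s then w k else v k) := by
    intro s
    induction s using Finset.induction with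
    | empty => simpa using hv
    | insert i s his ih =>
      rcases h i with hi | hi
      · convert ih using 1
        funext k
        by_cases hk : k = i
        · subst hk; simp [his, hi]
        · simp [hk]
      · convert S.X_flip ih i using 1
        funext k
        by_cases hk : k = i
        · subst hk; simp [his, hi]
        · simp [hk]
  simpa using key Finset.univ

variable [Fintype F]

/-- All vectors halfway between four frame vectors lie in the set if one does. -/
theorem half_mem {h a : Fin 5 → F} (hh : X Γ M h) (hh' : Half h) (ha : Half a) : X Γ M a := by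
  obtain ⟨z, hz, hhz⟩ := hh'
  obtain ⟨w, hw, haw⟩ := ha
  obtain ⟨σ, hσ, hσz⟩ := exists_even z
  obtain ⟨τ, hτ, hτw⟩ := exists_even w
  refine S.X_signs (S.X_perm hh (σ * τ⁻¹) (by rw [map_mul, map_inv, hσ, hτ, inv_one, one_mul]))
    fun k => ?_
  by_cases hk : k = w
  · left
    subst hk
    have : τ.symm k = 4 := by rw [← hτw]; simp
    simp [hw, Equiv.Perm.mul_apply, Equiv.Perm.inv_def, this, hσz, hz]
  · have hne : (σ * τ⁻¹) k ≠ z := fun e => hk (by
      rw [← hσz, Equiv.Perm.mul_apply] at e
      have := congrArg τ (σ.injective e)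
      simpa [hτw] using this)
    have e1 := haw k hk
    have e2 := hhz _ hne
    show a k = h ((σ * τ⁻¹) k) ∨ a k = -h ((σ * τ⁻¹) k)
    refine sq_eq_sq_iff_eq_or_eq_neg.1 (mul_left_cancel₀ (mul_ne_zero S.two S.two) ?_)
    linear_combination e1 - e2

variable {p : ℕ}

/-- The doubled coordinates of a vector with a zero coordinate. -/
theorem zero_root (hp : p.Prime) (hcard : Fintype.card F = p) (h5 : 5 ≤ p)
    (hbig : ¬ Cfsg.spGL 2 F ≤ M) {x : Fin 5 → F} (hx : X Γ M x) {z i j : Fin 5} (hz : x z = 0)
    (hiz : i ≠ z) (hji : j ≠ i) (hj : x j ≠ 0) :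
    rootPoly (4 * x i * x i) = 0 ∧ 4 * x i * x i ≠ 4 := by
  obtain ⟨P, E⟩ := S.exists_eig
  obtain ⟨σ, hσ, hσz⟩ := exists_even z
  have := (S.coord_root E hp hcard h5 (S.X_perm hx σ hσ) (by simp [hσz, hz])).resolve_left hbig
  have hi4 : σ.symm i ≠ 4 := fun e => hiz (by rw [← hσz, ← e, Equiv.apply_symm_apply])
  rcases this (σ.symm i) hi4 with h | h
  · exact absurd (by simpa using h (σ.symm j) (fun e => hji (σ.symm.injective e))) hj
  · simpa using h

/-- A chain of reflections over a small prime field contradicts the local structure. -/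
theorem chain_false [Fact p.Prime] (hp : p.Prime) (hcard : Fintype.card F = p) (h5 : 5 ≤ p)
    (hbig : ¬ Cfsg.spGL 2 F ≤ M) {h : Fin 5 → F} (hh : X Γ M h) (hh' : Half h)
    (l : List (Fin 5 → ZMod p)) (v₀ : Fin 5 → ZMod p)
    (hl : ∀ b ∈ v₀ :: l, ∃ z, b z = 0 ∧ ∀ k, k ≠ z → 4 * b k * b k = 1)
    {z i j : Fin 5} (hz : (l.foldl (fun v b => refl b v) v₀) z = 0)
    (hiz : i ≠ z) (hji : j ≠ i) (hj : (l.foldl (fun v b => refl b v) v₀) j ≠ 0)
    (hi : 4 * (l.foldl (fun v b => refl b v) v₀) i * (l.foldl (fun v b => refl b v) v₀) i = 4) :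
    False := by
  haveI : CharP F p := charP_of_card_eq_prime (by rw [hcard])
  set φ : ZMod p →+* F := ZMod.castHom dvd_rfl F
  have hhalf : ∀ b ∈ v₀ :: l, X Γ M (φ ∘ b) := fun b hb => by
    obtain ⟨z, hz, hb'⟩ := hl b hb
    refine S.half_mem hh hh' ⟨z, by simp [hz], fun k hk => ?_⟩
    have e := congrArg φ (hb' k hk)
    simpa [map_ofNat] using e
  have hX : ∀ (l : List (Fin 5 → ZMod p)) (v : Fin 5 → ZMod p), X Γ M (φ ∘ v) →
      (∀ b ∈ l, X Γ M (φ ∘ b)) → X Γ M (φ ∘ l.foldl (fun v b => refl b v) v) := by
    intro l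
    induction l with
    | nil => intro v hv _; exact hv
    | cons b l ih =>
      intro v hv hl
      refine ih _ ?_ fun c hc => hl c (List.mem_cons_of_mem _ hc)
      rw [map_refl]
      exact S.X_refl hv (hl b List.mem_cons_self)
  have hw := hX l v₀ (hhalf _ List.mem_cons_self) fun b hb => hhalf b (List.mem_cons_of_mem _ hb)
  obtain ⟨-, hne⟩ := S.zero_root hp hcard h5 hbig hw (z := z) (i := i) (j := j) (by simp [hz]) hiz
    hji (fun e => hj (φ.injective (by simpa using e)))
  refine hne ?_
  have e := congrArg φ hi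
  simpa [map_ofNat] using e

/-- A vector halfway between four frame vectors gives all isometries. -/
theorem big_of_half (hp : p.Prime) (hcard : Fintype.card F = p) {h : Fin 5 → F}
    (hh : X Γ M h) (hh' : Half h) : Cfsg.spGL 2 F ≤ M := by
  obtain ⟨P, E⟩ := S.exists_eig
  by_cases h3 : p = 3
  · subst h3
    exact S.big_of_half_three E hcard fun x hx hx' => S.half_mem hh hh' ⟨4, hx, hx'⟩
  have h2 := S.two
  have h5 : 5 ≤ p := by
    haveI : Fact p.Prime := ⟨hp⟩
    haveI : CharP F p := charP_of_card_eq_prime (by rw [hcard])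
    have := hp.two_le
    by_contra hlt
    interval_cases p
    · exact h2 (by simpa using CharP.cast_eq_zero F 2)
    · exact h3 rfl
    · norm_num at hp
  by_contra hbig
  by_cases hp5 : p = 5
  · subst hp5
    exact S.chain_false hp hcard h5 hbig hh hh' [![3, 0, 3, 3, 3], ![3, 3, 0, 3, 2]]
      ![0, 3, 3, 3, 3] (by simp only [List.forall_mem_cons, List.not_mem_nil, IsEmpty.forall_iff,
        implies_true, and_true]; decide) (z := 0) (i := 2) (j := 3) (by decide) (by decide)
      (by decide) (by decide) (by decide)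
  by_cases hp7 : p = 7
  · subst hp7
    exact S.chain_false hp hcard h5 hbig hh hh' [![4, 0, 4, 4, 4], ![4, 4, 0, 4, 4]]
      ![0, 4, 4, 4, 4] (by simp only [List.forall_mem_cons, List.not_mem_nil, IsEmpty.forall_iff,
        implies_true, and_true]; decide) (z := 1) (i := 3) (j := 0) (by decide) (by decide)
      (by decide) (by decide) (by decide)
  by_cases hp11 : p = 11
  · subst hp11
    exact S.chain_false hp hcard h5 hbig hh hh'
      [![6, 0, 6, 6, 6], ![0, 6, 6, 6, 5], ![6, 0, 6, 6, 6]]
      ![0, 6, 6, 6, 6] (by simp only [List.forall_mem_cons, List.not_mem_nil, IsEmpty.forall_iff,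
        implies_true, and_true]; decide) (z := 4) (i := 1) (j := 0) (by decide) (by decide)
      (by decide) (by decide) (by decide)
  haveI : Fact p.Prime := ⟨hp⟩
  haveI : CharP F p := charP_of_card_eq_prime (by rw [hcard])
  have nz : ∀ n : ℕ, ¬ p ∣ n → (n : F) ≠ 0 := fun n hn e => hn (eq_or_of_dvd_cast e)
  have small : ∀ a b c : ℕ, ¬ p ∣ 2 ^ a * 3 * 5 * 7 ^ b * 11 ^ c := by
    intro a b c hd
    have eq : ∀ r : ℕ, r.Prime → p ∣ r → p = r := fun r hr h => (Nat.prime_dvd_prime_iff_eq hp hr).1 h
    rcases (Nat.Prime.dvd_mul hp).1 hd with h | h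
    rcases (Nat.Prime.dvd_mul hp).1 h with h | h
    rcases (Nat.Prime.dvd_mul hp).1 h with h | h
    rcases (Nat.Prime.dvd_mul hp).1 h with h | h
    · have := eq 2 (by norm_num) (hp.dvd_of_dvd_pow h); omega
    · have := eq 3 (by norm_num) h; omega
    · have := eq 5 (by norm_num) h; omega
    · have := eq 7 (by norm_num) (hp.dvd_of_dvd_pow h); omega
    · have := eq 11 (by norm_num) (hp.dvd_of_dvd_pow h); omega
  have t3 : (3 : F) ≠ 0 := by
    have := nz 3 (fun hd => h3 ((Nat.prime_dvd_prime_iff_eq hp Nat.prime_three).1 hd))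
    exact_mod_cast this
  set u : F := (2 : F)⁻¹ with hu
  have hu4 : 4 * u * u = 1 := by rw [hu]; field_simp; norm_num
  have u0 : u ≠ 0 := inv_ne_zero h2
  clear_value u
  have hx := S.half_mem hh hh' (a := ![u, u, u, u, 0])
    ⟨4, rfl, fun k hk => by fin_cases k <;> simp at hk ⊢ <;> linear_combination hu4⟩
  have hy := S.half_mem hh hh' (a := ![0, u, u, u, u])
    ⟨0, rfl, fun k hk => by fin_cases k <;> simp at hk ⊢ <;> linear_combination hu4⟩
  have hxy : dot ![u, u, u, u, 0] ![0, u, u, u, u] ≠ 0 := by
    intro e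
    simp [dot_eq] at e
    exact t3 (by linear_combination 4 * e - 3 * hu4)
  rcases S.three_cases hx hy (S.X_single 0) (by simp [dot_single]) hxy with
    ⟨c, hc, hca, hcU⟩ | ⟨d, hd, hdP, hdU⟩ | ⟨d, hd, had, hdP, hdU⟩
  · -- the vector in the plane
    have hw := S.half_mem hh hh' (a := ![0, u, u, -u, u])
      ⟨0, rfl, fun k hk => by fin_cases k <;> simp at hk ⊢ <;> linear_combination hu4⟩
    have hc' := S.X_refl hc hw
    have cc : ∀ k, c k = dot c ![0, u, u, u, u] * (![0, u, u, u, u] : Fin 5 → F) k +
        c 0 * (Pi.single 0 (1 : F) : Fin 5 → F) k := fun k => by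
      have e := congrFun hcU k
      simp only [pU, pP, dot_single, mul_one, Pi.sub_apply, Pi.add_apply, Pi.smul_apply, smul_eq_mul,
        Pi.zero_apply] at e
      linear_combination e
    set α := dot c ![0, u, u, u, u] with hα
    have c1 := cc 1; have c2 := cc 2; have c3 := cc 3; have c4 := cc 4
    simp at c1 c2 c3 c4
    rw [dot_eq] at hca
    simp [c1, c2, c3, c4] at hca
    have c0 : c 0 = -3 * (α * u) := mul_left_cancel₀ u0 (by linear_combination hca)
    have hn := S.X_norm hc
    rw [dot_eq, c0, c1, c2, c3, c4] at hn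
    set lam := α * u
    have h13 : 13 * (lam * lam) = 1 := by linear_combination hn
    have t13 : (13 : F) ≠ 0 := fun e => by rw [e, zero_mul] at h13; exact zero_ne_one h13
    have l0 : lam ≠ 0 := fun e => by rw [e] at h13; simp at h13
    have hdw : dot c ![0, u, u, -u, u] = 2 * u * lam := by
      rw [dot_eq]; simp [c1, c2, c3, c4]; ring
    have hv : refl ![0, u, u, -u, u] c = lam • ![3, 0, 0, -2, 0] := by
      funext k
      fin_cases k <;> simp [refl, hdw, c0, c1, c2, c3, c4] <;>
        first | linear_combination (0 : F) * hu4 | linear_combination lam * hu4 | linear_combination -lam * hu4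
    rw [hv] at hc'
    obtain ⟨r1, -⟩ := S.zero_root hp hcard h5 hbig hc' (z := 1) (i := 0) (j := 3) (by simp) (by decide) (by decide)
      (by simp [l0, h2])
    obtain ⟨r2, -⟩ := S.zero_root hp hcard h5 hbig hc' (z := 1) (i := 3) (j := 0) (by simp) (by decide) (by decide)
      (by simp [l0, t3])
    simp at r1 r2
    have e1 : ((36 * 23 * 10 * 61 : ℕ) : F) = 0 := by
      have : rootPoly ((36 : F) / 13) = 0 := by
        rw [← r1]; congr 1; field_simp; linear_combination -36 * h13
      simp only [rootPoly] at this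
      field_simp at this
      push_cast
      first | linear_combination this | linear_combination -this
    have e2 : ((16 * 3 * 10 * 199 : ℕ) : F) = 0 := by
      have : rootPoly ((16 : F) / 13) = 0 := by
        rw [← r2]; congr 1; field_simp; linear_combination -16 * h13
      simp only [rootPoly] at this
      field_simp at this
      push_cast
      first | linear_combination this | linear_combination -this
    refine small 3 0 0 ((Nat.dvd_gcd (eq_or_of_dvd_cast (p := p) e1)
      (eq_or_of_dvd_cast (p := p) e2)).trans ?_)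
    norm_num
  · -- the vector orthogonal to the plane
    set y' : Fin 5 → F := ![0, u, u, u, u]
    have hny := S.X_norm hy
    have d0 : d 0 = 0 := by
      have e := congrFun hdP 0
      simpa [pP, y', dot_single] using e
    have hdy : d 1 + d 2 + d 3 + d 4 = 0 := by
      have e := congrFun hdP 1
      simp [pP, y', dot_eq, u0] at e
      refine mul_left_cancel₀ u0 ?_
      first | linear_combination e | linear_combination -e
    set s := dot (pU y' (Pi.single 0 1) ![u, u, u, u, 0]) d
    have q : ∀ k, (![0, 1, 1, 1, -3] : Fin 5 → F) k * u = 4 * s * d k := by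
      intro k
      have e := congrFun hdU k
      simp only [pU_apply, Pi.smul_apply, smul_eq_mul, dot_single, mul_one] at e
      fin_cases k <;> simp [y', dot_eq, d0] at e ⊢ <;>
        first | linear_combination 4 * e - 4 * s * d0 | linear_combination 4 * e | linear_combination (4 : F) * e + 3 * u * hu4 | linear_combination (4 : F) * e - 3 * u * hu4 | linear_combination -4 * s * d0 | linear_combination (4 : F) * s * d0
    have q1 := q 1; have q2 := q 2; have q3 := q 3; have q4 := q 4
    simp at q1 q2 q3 q4
    have s0 : s ≠ 0 := fun e => u0 (by rw [q1, e]; ring)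
    set lam := u / (4 * s) with hlam
    have h4 : (4 : F) ≠ 0 := by
      rw [show (4 : F) = 2 * 2 by norm_num]; exact mul_ne_zero h2 h2
    have d1 : d 1 = lam := by rw [hlam, eq_div_iff (mul_ne_zero h4 s0)]; linear_combination -q1
    have d2 : d 2 = lam := by rw [hlam, eq_div_iff (mul_ne_zero h4 s0)]; linear_combination -q2
    have d3 : d 3 = lam := by rw [hlam, eq_div_iff (mul_ne_zero h4 s0)]; linear_combination -q3
    have d4 : d 4 = -3 * lam := by linear_combination hdy - d1 - d2 - d3
    clear_value lam
    have hn := S.X_norm hd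
    rw [dot_eq, d0, d1, d2, d3, d4] at hn
    have h12 : 12 * (lam * lam) = 1 := by linear_combination hn
    have l0 : lam ≠ 0 := fun e => by rw [e] at h12; simp at h12
    have hw := S.half_mem hh hh' (a := ![0, u, u, u, -u])
      ⟨0, rfl, fun k hk => by fin_cases k <;> simp at hk ⊢ <;> linear_combination hu4⟩
    have hd' := S.X_refl hd hw
    have hdw : dot d ![0, u, u, u, -u] = 6 * u * lam := by
      rw [dot_eq]; simp [d0, d1, d2, d3, d4]; ring
    have hv : refl ![0, u, u, u, -u] d = lam • ![0, 2, 2, 2, 0] := by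
      funext k
      fin_cases k <;> simp [refl, hdw, d0, d1, d2, d3, d4] <;>
        first | linear_combination (0 : F) * hu4 | linear_combination 3 * lam * hu4 | linear_combination -3 * lam * hu4
    rw [hv] at hd'
    obtain ⟨r1, -⟩ := S.zero_root hp hcard h5 hbig hd' (z := 4) (i := 1) (j := 2) (by simp) (by decide) (by decide)
      (by simp [l0, h2])
    simp at r1
    have e1 : ((4 * 1 * 2 * 11 : ℕ) : F) = 0 := by
      have : rootPoly ((4 : F) / 3) = 0 := by
        rw [← r1]; congr 1; field_simp
        first | linear_combination -4 * h12 | linear_combination -h12 | linear_combination h12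
      simp only [rootPoly] at this
      field_simp at this
      push_cast
      first | linear_combination this | linear_combination -this
    refine small 3 0 1 ((eq_or_of_dvd_cast (p := p) e1).trans ?_)
    norm_num
  · -- the vector in both parts
    set y' : Fin 5 → F := ![0, u, u, u, u]
    have hb := hdU ![0, 1, 0, 0, -1] (by simp [y', dot_eq]) (by simp [dot_single])
    have eP := congrFun hdP 0
    simp only [Pi.smul_apply, smul_eq_mul, pP_apply, dot_single, mul_one] at eP
    simp [y', dot_eq] at eP
    have eU2 := congrFun hb 2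
    have eU3 := congrFun hb 3
    simp only [Pi.smul_apply, smul_eq_mul, pU_apply, dot_single, mul_one] at eU2 eU3
    simp [y', dot_eq] at eU2 eU3
    rw [dot_eq] at had
    simp at had
    have hd0 : d 0 + d 1 + d 2 + d 3 = 0 := mul_left_cancel₀ u0 (by linear_combination had)
    have hs : 3 * d 0 = d 1 + d 2 + d 3 + d 4 := mul_left_cancel₀ u0 (mul_left_cancel₀ u0 (by
      first | linear_combination eP | linear_combination -eP))
    have d4 : d 4 = 4 * d 0 := by linear_combination -hs - hd0
    -- the three middle coordinates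
    have e2 : 4 * d 2 - (d 1 + d 2 + d 3 + d 4) = d 1 - d 4 := mul_left_cancel₀ u0 (by
      linear_combination 4 * eU2 + (d 1 + d 2 + d 3 + d 4 - 3 * (d 1 - d 4)) * u * hu4)
    have e3 : 4 * d 3 - (d 1 + d 2 + d 3 + d 4) = d 1 - d 4 := mul_left_cancel₀ u0 (by
      linear_combination 4 * eU3 + (d 1 + d 2 + d 3 + d 4 - 3 * (d 1 - d 4)) * u * hu4)
    obtain ⟨lam, hlam⟩ : ∃ lam, d 0 = 3 * lam := ⟨d 0 / 3, by field_simp⟩
    have h4 : (4 : F) ≠ 0 := by
      rw [show (4 : F) = 2 * 2 by norm_num]; exact mul_ne_zero h2 h2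
    have d0 := hlam
    have d4' : d 4 = 12 * lam := by linear_combination d4 + 4 * d0
    have d1 : d 1 = -lam := mul_left_cancel₀ (mul_ne_zero h2 t3) (by
      linear_combination -e2 - e3 + 4 * hd0 + 2 * hs + 2 * d4' - 10 * d0)
    have d2 : d 2 = -lam := mul_left_cancel₀ h4 (by
      linear_combination e2 - hs + 3 * d0 - d4' + d1)
    have d3 : d 3 = -lam := by linear_combination hd0 - d0 - d1 - d2
    have hn := S.X_norm hd
    rw [dot_eq, d0, d1, d2, d3, d4'] at hn
    have h156 : 156 * (lam * lam) = 1 := by linear_combination hn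
    have l0 : lam ≠ 0 := fun e => by rw [e] at h156; simp at h156
    have t39 : (39 : F) ≠ 0 := fun e => by
      rw [show (156 : F) = 4 * 39 by norm_num, e] at h156; simp at h156
    have t13 : (13 : F) ≠ 0 := fun e => t39 (by rw [show (39 : F) = 3 * 13 by norm_num, e, mul_zero])
    have hw := S.half_mem hh hh' (a := ![u, u, u, -u, 0])
      ⟨4, rfl, fun k hk => by fin_cases k <;> simp at hk ⊢ <;> linear_combination hu4⟩
    have hd' := S.X_refl hd hw
    have hdw : dot d ![u, u, u, -u, 0] = 2 * u * lam := by
      rw [dot_eq]; simp [d0, d1, d2, d3]; ring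
    have hv : refl ![u, u, u, -u, 0] d = lam • ![-2, 2, 2, 0, -12] := by
      funext k
      fin_cases k <;> simp [refl, hdw, d0, d1, d2, d3, d4'] <;>
        first | linear_combination (0 : F) * hu4 | linear_combination lam * hu4 | linear_combination -lam * hu4
    rw [hv] at hd'
    have t12 : (12 : F) ≠ 0 := by
      rw [show (12 : F) = 4 * 3 by norm_num]; exact mul_ne_zero h4 t3
    obtain ⟨r1, -⟩ := S.zero_root hp hcard h5 hbig hd' (z := 3) (i := 1) (j := 4) (by simp)
      (by decide) (by decide) (by simp [l0, t12])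
    obtain ⟨r2, -⟩ := S.zero_root hp hcard h5 hbig hd' (z := 3) (i := 4) (j := 1) (by simp)
      (by decide) (by decide) (by simp [l0, h2])
    simp at r1 r2
    have e1 : ((4 * 35 * 74 * 1069 : ℕ) : F) = 0 := by
      have : rootPoly ((4 : F) / 39) = 0 := by
        rw [← r1]; congr 1; field_simp
        first | linear_combination -4 * h156 | linear_combination -h156 | linear_combination h156
      simp only [rootPoly] at this
      field_simp at this
      push_cast
      first | linear_combination this | linear_combination -this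
    have e2 : ((48 * 35 * 22 * 601 : ℕ) : F) = 0 := by
      have : rootPoly ((48 : F) / 13) = 0 := by
        rw [← r2]; congr 1; field_simp
        first | linear_combination -48 * h156 | linear_combination -4 * h156 | linear_combination -h156 | linear_combination h156 | linear_combination -12 * h156 | linear_combination -24 * h156 | linear_combination 48 * h156
      simp only [rootPoly] at this
      field_simp at this
      push_cast
      first | linear_combination this | linear_combination -this
    refine small 3 1 0 ((Nat.dvd_gcd (eq_or_of_dvd_cast (p := p) e1)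
      (eq_or_of_dvd_cast (p := p) e2)).trans ?_)
    norm_num

end Frame5

end CfsgLib.Geometric.SympFour
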