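import Cfsg.Agent.Lib.Geometric.SympFour.Big
import Cfsg.Agent.Lib.Geometric.SympFour.Groups

/-!
What a group containing a frame can contain among the vectors orthogonal to a frame vector.
-/

set_option autoImplicit false
set_option linter.unusedSectionVars false

namespace CfsgLib.Geometric.SympFour

open scoped Matrix MatrixGroups
open CfsgLib.PauliFour CfsgLib.Geometric CfsgLib.SL2 CfsgLib.SL2.Dickson

variable {F : Type*} [Field F]

local notation "M₄" => Matrix (Fin 2 ⊕ Fin 2) (Fin 2 ⊕ Fin 2) F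
local notation "M₂" => Matrix (Fin 2) (Fin 2) F
local notation "GL₄" => GL (Fin 2 ⊕ Fin 2) F
local notation "SL₂" => Matrix.SpecialLinearGroup (Fin 2) F

/-- A vector with four squares equal to a quarter. -/
def Half (a : Fin 5 → F) : Prop := ∃ z, a z = 0 ∧ ∀ k, k ≠ z → 4 * a k * a k = 1

/-- A frame vector or one halfway between two of them. -/
def FS (a : Fin 5 → F) : Prop :=
  (∃ j, ∀ k, k ≠ j → a k = 0) ∨
    ∃ i j, i ≠ j ∧ 2 * a i * a i = 1 ∧ 2 * a j * a j = 1 ∧ ∀ k, k ≠ i → k ≠ j → a k = 0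

/-- The polynomial of the admissible squared doubled coordinates. -/
def rootPoly (t : F) : F := t * (t - 1) * (t - 2) * (t * t - 3 * t + 1)

theorem nat_card_dvd_three {H : Type*} [Group H] [Finite H] {x : H} (h : x ^ 3 = 1) (hne : x ≠ 1) :
    3 ∣ Nat.card H := by
  have := orderOf_eq_prime (hp := ⟨Nat.prime_three⟩) h hne
  exact this ▸ orderOf_dvd_natCard x

variable {Γ : Fin 5 → Matrix (Fin 2 ⊕ Fin 2) (Fin 2 ⊕ Fin 2) F}
  {M : Subgroup (GL (Fin 2 ⊕ Fin 2) F)} {P : GL (Fin 2 ⊕ Fin 2) F}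

namespace Frame5

variable (S : Frame5 Γ M) (E : Eig Γ P)
include S E

theorem blk_pair (k : Fin 2) {i j : Fin 5} (hi : i ≠ 4) (hj : j ≠ 4) (hi0 : i ≠ 0) :
    blk P k (Γ i * Γ j) = -(blk P k (Γ 0 * Γ i) * blk P k (Γ 0 * Γ j)) := by
  rw [← E.blk_mul S.two k (comm_two S.anti (by decide) hi), ← blk_neg]
  congr 1
  rw [mul_assoc, ← mul_assoc (Γ i) (Γ 0), S.anti.anti i 0 hi0]
  simp [mul_assoc, gsq S.anti]

theorem exists_pair_elt (i : Fin 5) {x : Fin 5 → F} (hx : X Γ M x) :
    ∃ g ∈ M, (g : M₄) = Γ i * V Γ x := by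
  obtain ⟨a, ha, ha'⟩ := S.gam i
  obtain ⟨b, hb, hb'⟩ := hx
  exact ⟨a * b, mul_mem ha hb, by rw [Units.val_mul, ha', hb']⟩

/-- The elements of the kernel of one block map. -/
theorem exists_zel {a b c d : Fin 5} (hab : a ≠ b) (hcd : c ≠ d) (hac : a ≠ c) (had : a ≠ d) :
    ∃ g ∈ M, (g : M₄) = (2 : F)⁻¹ • ((1 + Γ a * Γ b) * (1 + Γ c * Γ d)) := by
  obtain ⟨n, hn, hn'⟩ := S.perm a b c d hab hcd
  obtain ⟨ga, hga, hga'⟩ := S.gam a
  obtain ⟨gc, hgc, hgc'⟩ := S.gam c
  refine ⟨-1 * (n * ga * gc), mul_mem S.neg_one_mem (mul_mem (mul_mem hn hga) hgc), ?_⟩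
  simp only [Units.val_mul, Units.val_neg, Units.val_one, neg_mul, one_mul, hn', hga', hgc',
    Matrix.smul_mul, ← smul_neg]
  congr 1
  have e1 : (Γ a - Γ b) * Γ a = 1 + Γ a * Γ b := by
    rw [Matrix.sub_mul, S.anti.sq, S.anti.anti b a hab.symm, sub_neg_eq_add]
  have e2 : (Γ c - Γ d) * Γ c = 1 + Γ c * Γ d := by
    rw [Matrix.sub_mul, S.anti.sq, S.anti.anti d c hcd.symm, sub_neg_eq_add]
  have e3 : (Γ c - Γ d) * Γ a = -(Γ a * (Γ c - Γ d)) := by
    rw [Matrix.sub_mul, Matrix.mul_sub, S.anti.anti c a hac.symm, S.anti.anti d a had.symm]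
    abel
  rw [← e1, ← e2]
  simp only [← mul_assoc]
  rw [mul_assoc (Γ a - Γ b) (Γ c - Γ d) (Γ a), e3]
  simp [mul_assoc]

/-- The element permuting three frame vectors cyclically, in the two blocks. -/
theorem exists_omega {ε : F} (hε : ε * ε = 1) (hD : Γ 0 * Γ 1 * Γ 2 * Γ 3 = ε • Γ 4) :
    ∃ g : cent Γ M, ∀ k, (proj S E k g : M₂) = quat (bI Γ P k) (bJ Γ P k)
      ![-(2 : F)⁻¹, -((ε * bsgn k) / 2), -((ε * bsgn k) / 2), -(2 : F)⁻¹] := by
  obtain ⟨n, hn, hn'⟩ := S.perm 1 2 2 3 (by decide) (by decide)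
  have he : (Γ 1 - Γ 2) * (Γ 2 - Γ 3) = Γ 1 * Γ 2 - Γ 1 * Γ 3 - 1 + Γ 2 * Γ 3 := by
    rw [Matrix.sub_mul, Matrix.mul_sub, Matrix.mul_sub, S.anti.sq]; abel
  refine ⟨⟨n, hn, ?_⟩, fun k => ?_⟩
  · rw [hn', he, Matrix.smul_mul, Matrix.mul_smul]
    congr 1
    simp only [sub_mul, add_mul, mul_sub, mul_add, one_mul, mul_one,
      comm_two S.anti (i := 1) (j := 2) (by decide) (by decide),
      comm_two S.anti (i := 1) (j := 3) (by decide) (by decide),
      comm_two S.anti (i := 2) (j := 3) (by decide) (by decide)]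
  · rw [proj_coe]
    show blk P k (n : M₄) = _
    rw [hn', he, blk_smul, blk_add, blk_sub, blk_sub, blk_one,
      S.blk_pair E k (i := 1) (j := 2) (by decide) (by decide) (by decide),
      S.blk_pair E k (i := 1) (j := 3) (by decide) (by decide) (by decide),
      S.blk_pair E k (i := 2) (j := 3) (by decide) (by decide) (by decide), S.blk_zero_three E hε hD k]
    have hq := S.qbasis E k
    obtain ⟨b0, b1, b2, b3⟩ := QBasis.quat_basis (I := bI Γ P k) (J := bJ Γ P k)
    rw [← bI, ← bJ, Matrix.mul_smul, Matrix.mul_smul]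
    have m1 : bI Γ P k * (bI Γ P k * bJ Γ P k) = -bJ Γ P k := by
      rw [← mul_assoc, hq.II, neg_one_mul]
    have m2 : bJ Γ P k * (bI Γ P k * bJ Γ P k) = bI Γ P k := by
      rw [← mul_assoc, hq.JI, Matrix.neg_mul, mul_assoc, hq.JJ, Matrix.mul_neg, mul_one, neg_neg]
    rw [m1, m2]
    simp only [quat, Matrix.cons_val_zero, Matrix.cons_val_one, Matrix.cons_val]
    have := S.two
    match_scalars <;> field_simp

/-- The two generators of the quaternion group lie in the kernel of one block map. -/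
theorem exists_kernel {ε : F} (hε : ε * ε = 1) (hD : Γ 0 * Γ 1 * Γ 2 * Γ 3 = ε • Γ 4) :
    (∃ g : cent Γ M, proj S E 1 g = 1 ∧ (proj S E 0 g : M₂) = bI Γ P 0) ∧
      (∃ g : cent Γ M, proj S E 1 g = 1 ∧ (proj S E 0 g : M₂) = bJ Γ P 0) := by
  have h2 := S.two
  have hq := fun k => S.qbasis E k
  have key : ∀ (j c d : Fin 5) (B : Fin 2 → M₂), j ≠ 4 → c ≠ 4 → d ≠ 4 → (0 : Fin 5) ≠ j →
      c ≠ d → (0 : Fin 5) ≠ c → (0 : Fin 5) ≠ d → (∀ k, blk P k (Γ 0 * Γ j) = B k) →
      (∀ k, B k * B k = -1) → (∀ k, blk P k (Γ c * Γ d) = (bsgn k : F) • B k) →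
      ∃ g : cent Γ M, proj S E 1 g = 1 ∧ (proj S E 0 g : M₂) = B 0 := by
    intro j c d B hj hc hd h0j hcd h0c h0d hB hsq hcdB
    obtain ⟨g, hg, hg'⟩ := S.exists_zel E h0j hcd h0c h0d
    have hgc : (g : M₄) * Γ 4 = Γ 4 * (g : M₄) := by
      rw [hg', Matrix.smul_mul, Matrix.mul_smul]
      congr 1
      have u1 := comm_two S.anti (i := 0) (j := j) (by decide) hj
      have u2 := comm_two S.anti (i := c) (j := d) hc hd
      rw [mul_assoc, show (1 + Γ c * Γ d) * Γ 4 = Γ 4 * (1 + Γ c * Γ d) by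
        rw [add_mul, mul_add, one_mul, mul_one, u2], ← mul_assoc,
        show (1 + Γ 0 * Γ j) * Γ 4 = Γ 4 * (1 + Γ 0 * Γ j) by
        rw [add_mul, mul_add, one_mul, mul_one, u1], mul_assoc]
    have hblk : ∀ k, blk P k (g : M₄) = (2 : F)⁻¹ • ((1 + B k) * (1 + (bsgn k : F) • B k)) := by
      intro k
      rw [hg', blk_smul, E.blk_mul S.two k (by
        rw [add_mul, mul_add, one_mul, mul_one, comm_two S.anti (by decide) hj]),
        blk_add, blk_add, blk_one, hB, hcdB]
    refine ⟨⟨g, hg, hgc⟩, Subtype.ext ?_, ?_⟩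
    · rw [proj_coe]
      show blk P 1 (g : M₄) = _
      rw [hblk, Matrix.SpecialLinearGroup.coe_one]
      simp only [bsgn, Matrix.cons_val_one, Matrix.cons_val_zero, neg_smul, one_smul, add_mul,
        mul_add, mul_neg, hsq, one_mul, mul_one, neg_neg]
      match_scalars <;> field_simp <;> ring
    · rw [proj_coe]
      show blk P 0 (g : M₄) = _
      rw [hblk]
      simp only [bsgn, Matrix.cons_val_zero, one_smul, add_mul, mul_add, hsq, one_mul, mul_one]
      match_scalars <;> field_simp <;> ring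
  have h03 := fun k => S.blk_zero_three E hε hD k
  have hsgn := mul_self_eq_one_iff.1 hε
  constructor
  · have e : ∀ k, blk P k (Γ 2 * Γ 3) = (-(ε * bsgn k) : F) • bI Γ P k := fun k => by
      rw [S.blk_pair E k (by decide) (by decide) (by decide), h03, ← bJ, Matrix.mul_smul,
        ← mul_assoc, (hq k).JI, Matrix.neg_mul, mul_assoc, (hq k).JJ, Matrix.mul_neg, mul_one,
        neg_neg, neg_smul]
    rcases hsgn with rfl | rfl
    · refine key 1 3 2 (bI Γ P) (by decide) (by decide) (by decide) (by decide) (by decide)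
        (by decide) (by decide) (fun k => rfl) (fun k => (hq k).II) fun k => ?_
      rw [S.anti.anti 3 2 (by decide), blk_neg, e, ← neg_smul, neg_neg, one_mul]
    · refine key 1 2 3 (bI Γ P) (by decide) (by decide) (by decide) (by decide) (by decide)
        (by decide) (by decide) (fun k => rfl) (fun k => (hq k).II) fun k => ?_
      rw [e, neg_one_mul, neg_neg]
  · have e : ∀ k, blk P k (Γ 1 * Γ 3) = (ε * bsgn k : F) • bJ Γ P k := fun k => by
      rw [S.blk_pair E k (by decide) (by decide) (by decide), h03, ← bI, Matrix.mul_smul,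
        ← mul_assoc, (hq k).II, neg_one_mul, smul_neg, neg_neg]
    rcases hsgn with rfl | rfl
    · refine key 2 1 3 (bJ Γ P) (by decide) (by decide) (by decide) (by decide) (by decide)
        (by decide) (by decide) (fun k => rfl) (fun k => (hq k).JJ) fun k => ?_
      rw [e, one_mul]
    · refine key 2 3 1 (bJ Γ P) (by decide) (by decide) (by decide) (by decide) (by decide)
        (by decide) (by decide) (fun k => rfl) (fun k => (hq k).JJ) fun k => ?_
      rw [S.anti.anti 3 1 (by decide), blk_neg, e, ← neg_smul, neg_one_mul, neg_neg]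

/-- The image of the kernel of the other block map. -/
def kerImage : Subgroup (Matrix.SpecialLinearGroup (Fin 2) F) :=
  (proj S E 1).ker.map (proj S E 0)

theorem kerImage_conj {k g : SL₂} (hk : k ∈ kerImage S E) (hg : g ∈ (proj S E 0).range) :
    g * k * g⁻¹ ∈ kerImage S E := by
  obtain ⟨a, ha, rfl⟩ := hk
  obtain ⟨b, rfl⟩ := hg
  exact ⟨b * a * b⁻¹, MonoidHom.normal_ker (proj S E 1) |>.conj_mem a ha b, by simp⟩

theorem big_of_unipotent [Fintype F] {p : ℕ} (hp : p.Prime) (hcard : Fintype.card F = p)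
    (h : kerImage S E = ⊤) : Cfsg.spGL 2 F ≤ M := by
  obtain ⟨g, hg, hg'⟩ : (⟨!![1, 1; 0, 1], by simp [Matrix.det_fin_two]⟩ : SL₂) ∈ kerImage S E :=
    h ▸ Subgroup.mem_top _
  have e0 : blk P 0 ((g : GL₄) : M₄) = !![1, 1; 0, 1] := congrArg Subtype.val hg'
  have e1 : blk P 1 ((g : GL₄) : M₄) = 1 :=
    congrArg (fun z : SL₂ => (z : M₂)) (MonoidHom.mem_ker.1 hg)
  refine S.big_of_T E hp hcard ?_
  rw [← blk_T E S.two g.2.2 e1 e0]
  exact g.2.1

variable [Fintype F]

/-- The facts about the first block map. -/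
theorem qsub {ε : F} (hε : ε * ε = 1) (hD : Γ 0 * Γ 1 * Γ 2 * Γ 3 = ε • Γ 4) :
    QSub (proj S E 0).range ε ∧ ∃ I J n : SL₂, I ∈ kerImage S E ∧ J ∈ kerImage S E ∧
      n ∈ (proj S E 0).range ∧ (I : M₂) = bI Γ P 0 ∧ (J : M₂) = bJ Γ P 0 ∧
      (n : M₂) = quat (bI Γ P 0) (bJ Γ P 0) ![-(2 : F)⁻¹, -(ε / 2), -(ε / 2), -(2 : F)⁻¹] := by
  obtain ⟨⟨gi, hgi, hi⟩, ⟨gj, hgj, hj⟩⟩ := S.exists_kernel E hε hD
  obtain ⟨gn, hn⟩ := S.exists_omega E hε hD
  have hn0 : (proj S E 0 gn : M₂) =
      quat (bI Γ P 0) (bJ Γ P 0) ![-(2 : F)⁻¹, -(ε / 2), -(ε / 2), -(2 : F)⁻¹] := by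
    rw [hn 0]; simp [bsgn]
  refine ⟨⟨hε, proj S E 0 gi, proj S E 0 gj, proj S E 0 gn, ⟨gi, rfl⟩, ⟨gj, rfl⟩, ⟨gn, rfl⟩,
    by rw [hi, hj]; exact S.qbasis E 0, by rw [hi, hj, hn0]⟩,
    _, _, proj S E 0 gn, ⟨gi, hgi, rfl⟩, ⟨gj, hgj, rfl⟩, ⟨gn, rfl⟩, hi, hj, hn0⟩

/-- From five on, a full block gives all isometries. -/
theorem big_of_range_top {p : ℕ} (hp : p.Prime) (hcard : Fintype.card F = p) (h5 : 5 ≤ p)
    (h : (proj S E 0).range = ⊤) : Cfsg.spGL 2 F ≤ M := by
  obtain ⟨ε, hε, hD⟩ := S.prod_four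
  obtain ⟨-, I, J, n, hI, -, -, hI', hJ', -⟩ := S.qsub E hε hD
  set K := kerImage S E with hK
  haveI : K.Normal := ⟨fun k hk g => S.kerImage_conj E hk (h ▸ Subgroup.mem_top g)⟩
  have := CfsgLib.ClassicalLinear.isSimpleGroup_psl_fin (F := F) (n := 2) le_rfl fun _ => by
    rw [Nat.card_eq_fintype_card, hcard]; omega
  have hq := S.qbasis E 0
  have hII : I * I = -1 := Subtype.ext (by simp [hI', hq.II])
  refine S.big_of_unipotent E hp hcard (eq_top_iff.2 fun g _ => ?_)
  rcases (Subgroup.Normal.map (H := K) inferInstance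
    (QuotientGroup.mk' (Subgroup.center SL₂)) (QuotientGroup.mk'_surjective _)).eq_bot_or_eq_top
    with hb | ht
  · exfalso
    have hmem : I ∈ Subgroup.center SL₂ :=
      (QuotientGroup.eq_one_iff I).1 ((Subgroup.eq_bot_iff_forall _).1 hb _ ⟨I, hI, rfl⟩)
    obtain ⟨c, hc⟩ := (isScalarMat_iff _).1 ((mem_center_iff_isScalarMat I).1 hmem)
    have hq1 : quat (bI Γ P 0) (bJ Γ P 0) ![0, 1, 0, 0] = quat (bI Γ P 0) (bJ Γ P 0) ![c, 0, 0, 0] := by
      rw [show quat (bI Γ P 0) (bJ Γ P 0) ![0, 1, 0, 0] = bI Γ P 0 from QBasis.quat_basis.2.1,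
        ← hI', hc]
      simp [quat]
    simpa using congrFun (hq.injective hq1) 1
  · have hg : (QuotientGroup.mk' (Subgroup.center SL₂) g) ∈
        K.map (QuotientGroup.mk' (Subgroup.center SL₂)) := ht ▸ Subgroup.mem_top _
    obtain ⟨k, hk, hkg⟩ := hg
    have hz : k⁻¹ * g ∈ Subgroup.center SL₂ := QuotientGroup.eq.1 hkg
    have : k * (k⁻¹ * g) ∈ K := mul_mem hk (by
      rcases (SL2.mem_center_iff _).1 hz with e | e <;> rw [e]
      · exact one_mem K
      · exact hII ▸ mul_mem hI hI)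
    rwa [mul_inv_cancel_left] at this

omit [Fintype F] in
theorem pair_mem_cent {i : Fin 5} (hi : i ≠ 4) {x : Fin 5 → F} (hx : X Γ M x) (hx4 : x 4 = 0) :
    ∃ g : cent Γ M, ((g : GL₄) : M₄) = Γ i * V Γ x := by
  obtain ⟨g, hg, hg'⟩ := S.exists_pair_elt E i hx
  exact ⟨⟨g, hg, by rw [hg']; exact comm_gam_V S.anti hi hx4⟩, hg'⟩

/-- The doubled coordinates of a vector orthogonal to a frame vector. -/
theorem coord_root {p : ℕ} (hp : p.Prime) (hcard : Fintype.card F = p) (h5 : 5 ≤ p)
    {x : Fin 5 → F} (hx : X Γ M x) (hx4 : x 4 = 0) :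
    Cfsg.spGL 2 F ≤ M ∨ ∀ i, i ≠ 4 → (∀ j, j ≠ i → x j = 0) ∨
      (rootPoly (4 * x i * x i) = 0 ∧ 4 * x i * x i ≠ 4) := by
  obtain ⟨ε, hε, hD⟩ := S.prod_four
  obtain ⟨hQ, -⟩ := S.qsub E hε hD
  rcases range_cases hp hcard hQ with h | ⟨hdvd, -, -, hS⟩
  · exact Or.inl (S.big_of_range_top E hp hcard h5 h)
  refine Or.inr fun i hi => ?_
  obtain ⟨g, hg⟩ := S.pair_mem_cent E hi hx hx4
  set g' : (proj S E 0).range := ⟨proj S E 0 g, g, rfl⟩
  have htr : tr (g' : SL₂) = 2 * x i := by
    rw [tr_eq_trace]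
    show Matrix.trace (proj S E 0 g : M₂) = _
    rw [proj_coe, hg, S.trace_blk_gam_V E]
  by_cases hz : g' ∈ zG (proj S E 0).range
  · left
    -- a scalar block makes the vector a frame vector
    have hsc : ∃ σ : F, (proj S E 0 g : M₂) = σ • (1 : M₂) :=
      (isScalarMat_iff _).1 ((mem_center_iff_isScalarMat _).1 (mem_zG.1 hz))
    obtain ⟨σ, hσ⟩ := hsc
    rw [proj_coe, hg] at hσ
    set W := V Γ (x - σ • Pi.single i 1) with hW
    have hW4 : (x - σ • Pi.single i (1 : F) : Fin 5 → F) 4 = 0 := by simp [hx4, hi.symm]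
    have hblk : blk P 0 (Γ i * W) = 0 := by
      rw [hW, V_sub, V_smul, V_single, one_smul, Matrix.mul_sub, Matrix.mul_smul, S.anti.sq,
        blk_sub, blk_smul, blk_one, hσ, sub_self]
    have hc := comm_gam_V S.anti hi hW4
    rw [← hW] at hc
    have hz0 : Γ i * W * (1 + Γ 4) = 0 := by
      refine E.blk_ext S.two ?_ ?_ ?_
      · rw [← mul_assoc (Γ 4), ← hc, mul_assoc (Γ i * W), mul_assoc (Γ i * W)]
        congr 1
        rw [add_mul, mul_add, one_mul, mul_one]
      · rw [E.blk_mul S.two _ hc, hblk, zero_mul]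
      · rw [E.blk_mul S.two _ hc, blk_add, blk_one, E.blk_four]
        simp [bsgn]
    have hz1 : W * (1 + Γ 4) = 0 := by
      have e := congrArg (Γ i * ·) hz0
      simp only [← mul_assoc, S.anti.sq, one_mul, mul_zero] at e
      exact e
    have hz2 : (1 + Γ 4) * W = 0 := by
      have e := congrArg adj hz1
      rwa [adj_mul, adj_add, adj_one, S.adj_eq, S.adj_V, adj_zero] at e
    have hanti : W * Γ 4 = -(Γ 4 * W) := by
      have := anti_of_dot_eq_zero S.anti (a := x - σ • Pi.single i (1 : F)) (b := Pi.single 4 1)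
        (by rw [dot_single, hW4, zero_mul])
      simpa [V_single] using this
    have hW0 : W = 0 := by
      rw [mul_add, mul_one, hanti] at hz1
      rw [add_mul, one_mul] at hz2
      have : (2 : F) • W = 0 := by
        linear_combination (norm := module) hz1 + hz2
      exact (smul_eq_zero.1 this).resolve_left S.two
    have hx' : x - σ • Pi.single i (1 : F) = 0 :=
      V_injective S.anti S.two (by rw [← hW, hW0]; simp [V])
    intro j hj
    simpa [hj] using congrFun hx' j
  · right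
    have e4 : (2 * x i) ^ 2 = 4 * x i * x i := by ring
    refine ⟨?_, ?_⟩
    · have := trace_root hS g' hz
      rwa [htr, e4] at this
    · have := tr_sq_ne_four hp hcard (zero_of_neg hQ) hdvd g' hz
      rwa [htr, e4] at this

set_option maxHeartbeats 1000000 in
/-- A vector orthogonal to a frame vector is special, unless the group is large or has a half
root. -/
theorem type_of_orth {p : ℕ} (hp : p.Prime) (hcard : Fintype.card F = p)
    {x : Fin 5 → F} (hx : X Γ M x) (hx4 : x 4 = 0) :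
    Cfsg.spGL 2 F ≤ M ∨ (∃ h, X Γ M h ∧ Half h) ∨ FS x := by
  classical
  obtain ⟨ε, hε, hD⟩ := S.prod_four
  obtain ⟨hQ, I, J, n, hI, hJ, hn, hI', hJ', hn'⟩ := S.qsub E hε hD
  have h2 := S.two
  have hq := S.qbasis E 0
  obtain ⟨b0, b1, b2, b3⟩ := QBasis.quat_basis (I := bI Γ P 0) (J := bJ Γ P 0)
  set K := kerImage S E with hKdef
  have hKG : K ≤ (proj S E 0).range := Subgroup.map_le_range _ _
  obtain ⟨g, hg⟩ := S.pair_mem_cent E (i := 0) (by decide) hx hx4
  have hgq : (proj S E 0 g : M₂) = quat (bI Γ P 0) (bJ Γ P 0) (qv ε x) := by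
    rw [proj_coe, hg, S.blk_gam_V E hε hD 0 hx4]; simp [bsgn]
  suffices hax : (∃ h, X Γ M h ∧ Half h) ∨ Cfsg.spGL 2 F ≤ M ∨
      ∀ y ∈ K, Matrix.trace (y : M₂) = 0 → ∃ σ : F, (σ = 1 ∨ σ = -1) ∧
        ∃ w ∈ ({![0, 1, 0, 0], ![0, 0, 1, 0], ![0, 0, 0, 1]} : Set (Fin 4 → F)),
          (y : M₂) = σ • quat (bI Γ P 0) (bJ Γ P 0) w by
    rcases hax with h | h | hax
    · exact Or.inr (Or.inl h)
    · exact Or.inl h
    set q := qv ε x with hqdef
    have conds : ∀ (u : SL₂) (v : Fin 4 → F), u ∈ K → (u : M₂) = quat (bI Γ P 0) (bJ Γ P 0) v →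
        v 0 = 0 → ∃ σ : F, (σ = 1 ∨ σ = -1) ∧
          ∃ w ∈ ({![0, 1, 0, 0], ![0, 0, 1, 0], ![0, 0, 0, 1]} : Set (Fin 4 → F)),
            qmul q v = σ • qmul w q := by
      intro u v hu huv hv0
      set y := proj S E 0 g * u * (proj S E 0 g)⁻¹ with hy
      obtain ⟨σ, hσ, w, hw, e⟩ := hax y (S.kerImage_conj E hu ⟨g, rfl⟩) (by
        rw [← tr_eq_trace, tr_conj, tr_eq_trace, huv, hq.trace_quat, hv0, mul_zero])
      refine ⟨σ, hσ, w, hw, hq.injective ?_⟩
      have e' : (y : M₂) * (proj S E 0 g : M₂) = (proj S E 0 g : M₂) * (u : M₂) := by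
        rw [← Matrix.SpecialLinearGroup.coe_mul, hy, inv_mul_cancel_right,
          Matrix.SpecialLinearGroup.coe_mul]
      rw [e, hgq, huv, Matrix.smul_mul, hq.mul, hq.mul] at e'
      rw [← e']
      simp only [quat, Pi.smul_apply, smul_eq_mul, smul_add, smul_smul]
    obtain ⟨σ, hσ, w, hw, eI⟩ := conds I _ hI (by rw [hI', b1]) rfl
    obtain ⟨τ, hτ, w', hw', eJ⟩ := conds J _ hJ (by rw [hJ', b2]) rfl
    have hIc : (q 2 = 0 ∧ q 3 = 0) ∨ (q 0 = 0 ∧ q 1 = 0) ∨
        (∃ σ : F, (σ = 1 ∨ σ = -1) ∧ ((q 1 = σ * q 2 ∧ q 0 = σ * q 3) ∨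
          (q 1 = σ * q 3 ∧ q 0 = -(σ * q 2)))) := by
      have k0 := congrFun eI 0; have k1 := congrFun eI 1
      have k2 := congrFun eI 2
      rcases hw with rfl | rfl | rfl <;> simp [qmul] at k0 k1 k2
      · rcases hσ with rfl | rfl
        · refine Or.inl ⟨?_, ?_⟩
          · have k3 := congrFun eI 3
            simp [qmul] at k3
            exact (mul_eq_zero.1 (show (2 : F) * q 2 = 0 by
              first | linear_combination -k3 | linear_combination k3)).resolve_left h2
          · exact (mul_eq_zero.1 (show (2 : F) * q 3 = 0 by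
              first | linear_combination k2 | linear_combination -k2)).resolve_left h2
        · refine Or.inr (Or.inl ⟨?_, ?_⟩)
          · exact (mul_eq_zero.1 (show (2 : F) * q 0 = 0 by
              first | linear_combination k1 | linear_combination -k1)).resolve_left h2
          · exact (mul_eq_zero.1 (show (2 : F) * q 1 = 0 by
              first | linear_combination k0 | linear_combination -k0)).resolve_left h2
      · exact Or.inr (Or.inr ⟨σ, hσ, Or.inl ⟨by first | linear_combination k0 | linear_combination -k0,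
          by first | linear_combination k1 | linear_combination -k1⟩⟩)
      · exact Or.inr (Or.inr ⟨σ, hσ, Or.inr ⟨by first | linear_combination k0 | linear_combination -k0,
          by first | linear_combination k1 | linear_combination -k1⟩⟩)
    have hJc : (q 1 = 0 ∧ q 3 = 0) ∨ (q 0 = 0 ∧ q 2 = 0) ∨
        (∃ σ : F, (σ = 1 ∨ σ = -1) ∧ ((q 2 = σ * q 1 ∧ q 3 = -(σ * q 0)) ∨
          (q 2 = σ * q 3 ∧ q 0 = σ * q 1))) := by
      have k0 := congrFun eJ 0; have k1 := congrFun eJ 1
      have k2 := congrFun eJ 2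
      rcases hw' with rfl | rfl | rfl <;> simp [qmul] at k0 k1 k2
      · exact Or.inr (Or.inr ⟨τ, hτ, Or.inl ⟨by first | linear_combination k0 | linear_combination -k0,
          by first | linear_combination k1 | linear_combination -k1⟩⟩)
      · rcases hτ with rfl | rfl
        · refine Or.inl ⟨?_, ?_⟩
          · have k3 := congrFun eJ 3
            simp [qmul] at k3
            exact (mul_eq_zero.1 (show (2 : F) * q 1 = 0 by
              first | linear_combination -k3 | linear_combination k3)).resolve_left h2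
          · exact (mul_eq_zero.1 (show (2 : F) * q 3 = 0 by
              first | linear_combination k1 | linear_combination -k1)).resolve_left h2
        · refine Or.inr (Or.inl ⟨?_, ?_⟩)
          · exact (mul_eq_zero.1 (show (2 : F) * q 0 = 0 by
              first | linear_combination k2 | linear_combination -k2)).resolve_left h2
          · exact (mul_eq_zero.1 (show (2 : F) * q 2 = 0 by
              first | linear_combination k0 | linear_combination -k0)).resolve_left h2
      · exact Or.inr (Or.inr ⟨τ, hτ, Or.inr ⟨by first | linear_combination k0 | linear_combination -k0,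
          by first | linear_combination k2 | linear_combination -k2⟩⟩)
    have hc := rot_cases h2 hIc hJc
    have hq0 : q 0 = x 0 ∧ q 1 = x 1 ∧ q 2 = x 2 ∧ q 3 = ε * x 3 := by simp [hqdef, qv]
    have hs : ∀ z : F, ε * z * (ε * z) = z * z := fun z => by linear_combination (z * z) * hε
    have hε0 : ε ≠ 0 := fun h => by simp [h] at hε
    have hn1 := S.X_norm hx
    rw [dot_eq, hx4] at hn1
    simp only [hq0, hs, mul_eq_zero, hε0, false_or] at hc
    have zero3 : ∀ (j a b c : Fin 5), x a = 0 → x b = 0 → x c = 0 →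
        (∀ k, k = 4 ∨ k = j ∨ k = a ∨ k = b ∨ k = c) → FS x := by
      intro j a b c ha hb hc' hall
      refine Or.inl ⟨j, fun k hk => ?_⟩
      rcases hall k with r | r | r | r | r
      · rw [r, hx4]
      · exact absurd r hk
      all_goals rw [r]; assumption
    have two2 : ∀ i j a b : Fin 5, i ≠ j → x a = 0 → x b = 0 → x i * x i = x j * x j →
        x i * x i + x j * x j = 1 → (∀ k, k = 4 ∨ k = i ∨ k = j ∨ k = a ∨ k = b) → FS x := by
      intro i j a b hij ha hb hsq hsum hall
      refine Or.inr ⟨i, j, hij, by linear_combination hsum + hsq, by linear_combination hsum - hsq,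
        fun k hk hk' => ?_⟩
      rcases hall k with r | r | r | r | r
      · rw [r, hx4]
      · exact absurd r hk
      · exact absurd r hk'
      all_goals rw [r]; assumption
    rcases hc with ⟨e1, e2, e3⟩ | ⟨a, b, c⟩ | ⟨a, b, c⟩ | ⟨a, b, c⟩ | ⟨a, b, c⟩ | ⟨a, b, c⟩ | ⟨a, b, c⟩
    · refine Or.inr (Or.inl ⟨x, hx, 4, hx4, fun k hk => ?_⟩)
      fin_cases k
      · show 4 * x 0 * x 0 = 1; linear_combination hn1 + 3 * e1 + 2 * e2 + e3
      · show 4 * x 1 * x 1 = 1; linear_combination hn1 - e1 + 2 * e2 + e3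
      · show 4 * x 2 * x 2 = 1; linear_combination hn1 - e1 - 2 * e2 + e3
      · show 4 * x 3 * x 3 = 1; linear_combination hn1 - e1 - 2 * e2 - 3 * e3
      · exact absurd rfl hk
    all_goals refine Or.inr (Or.inr ?_)
    · rcases c with c | c | c
      · exact zero3 1 0 2 3 c a b (by decide)
      · exact zero3 0 1 2 3 c a b (by decide)
      · exact two2 0 1 2 3 (by decide) a b c (by rw [a, b] at hn1; linear_combination hn1) (by decide)
    · rcases c with c | c | c
      · exact zero3 3 0 1 2 a b c (by decide)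
      · exact zero3 2 0 1 3 a b c (by decide)
      · exact two2 2 3 0 1 (by decide) a b c (by rw [a, b] at hn1; linear_combination hn1) (by decide)
    · rcases c with c | c | c
      · exact zero3 2 0 1 3 c a b (by decide)
      · exact zero3 0 2 1 3 c a b (by decide)
      · exact two2 0 2 1 3 (by decide) a b c (by rw [a, b] at hn1; linear_combination hn1) (by decide)
    · rcases c with c | c | c
      · exact zero3 3 0 1 2 a c b (by decide)
      · exact zero3 1 0 2 3 a b c (by decide)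
      · exact two2 1 3 0 2 (by decide) a b c (by rw [a, b] at hn1; linear_combination hn1) (by decide)
    · rcases c with c | c | c
      · exact zero3 3 0 1 2 c a b (by decide)
      · exact zero3 0 3 1 2 c a b (by decide)
      · exact two2 0 3 1 2 (by decide) a b c (by rw [a, b] at hn1; linear_combination hn1) (by decide)
    · rcases c with c | c | c
      · exact zero3 2 0 1 3 a c b (by decide)
      · exact zero3 1 0 2 3 a c b (by decide)
      · exact two2 1 2 0 3 (by decide) a b c (by rw [a, b] at hn1; linear_combination hn1) (by decide)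
  -- the axes
  have hdet : ∀ (y : SL₂) (v : Fin 4 → F), (y : M₂) = quat (bI Γ P 0) (bJ Γ P 0) v →
      v 0 * v 0 + v 1 * v 1 + v 2 * v 2 + v 3 * v 3 = 1 := fun y v h => by
    rw [← hq.det_quat, ← h]; exact y.det_coe
  by_cases h3 : p = 3
  · subst h3
    haveI : Fact (Nat.Prime 3) := ⟨hp⟩
    haveI : CharP F 3 := charP_of_card_eq_prime (by rw [hcard])
    have three : (3 : F) = 0 := by simpa using CharP.cast_eq_zero F 3
    have elems : ∀ z : F, z = 0 ∨ z = 1 ∨ z = -1 := by
      intro z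
      obtain ⟨m, rfl⟩ := exists_nat_cast hp hcard z
      rw [CharP.cast_eq_mod F 3 m]
      have := Nat.mod_lt m (show 3 > 0 by norm_num)
      interval_cases (m % 3)
      · exact Or.inl (by simp)
      · exact Or.inr (Or.inl (by simp))
      · exact Or.inr (Or.inr (by push_cast; linear_combination three))
    refine Or.inr (Or.inr fun y _ hy => ?_)
    obtain ⟨v, hv⟩ := hq.surjective (y : M₂)
    have hv0 : v 0 = 0 := by
      rw [← hv, hq.trace_quat] at hy; exact (mul_eq_zero.1 hy).resolve_left h2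
    have hd := hdet y v hv.symm
    rw [hv0] at hd
    have pick : ∀ (σ : F) (w : Fin 4 → F), (∀ i, v i = σ * w i) →
        (y : M₂) = σ • quat (bI Γ P 0) (bJ Γ P 0) w := by
      intro σ w hvw
      rw [← hv, show v = fun i => σ * w i from funext hvw]
      simp only [quat, smul_add, smul_smul]
    rcases elems (v 1) with a | a | a <;> rcases elems (v 2) with b | b | b <;>
      rcases elems (v 3) with c | c | c <;> rw [a, b, c] at hd <;>
      first
        | (exfalso
           refine one_ne_zero (α := F) ?_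
           first
            | linear_combination hd | linear_combination -hd
            | linear_combination hd - three | linear_combination -hd + three
            | linear_combination hd + three | linear_combination -hd - three
            | linear_combination -2 * hd + three | linear_combination 2 * hd - three)
        | exact ⟨v 1, Or.inl a, _, Or.inl rfl, pick _ _ fun i => by fin_cases i <;> simp [hv0, a, b, c]⟩
        | exact ⟨v 1, Or.inr a, _, Or.inl rfl, pick _ _ fun i => by fin_cases i <;> simp [hv0, a, b, c]⟩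
        | exact ⟨v 2, Or.inl b, _, Or.inr (Or.inl rfl), pick _ _ fun i => by fin_cases i <;> simp [hv0, a, b, c]⟩
        | exact ⟨v 2, Or.inr b, _, Or.inr (Or.inl rfl), pick _ _ fun i => by fin_cases i <;> simp [hv0, a, b, c]⟩
        | exact ⟨v 3, Or.inl c, _, Or.inr (Or.inr rfl), pick _ _ fun i => by fin_cases i <;> simp [hv0, a, b, c]⟩
        | exact ⟨v 3, Or.inr c, _, Or.inr (Or.inr rfl), pick _ _ fun i => by fin_cases i <;> simp [hv0, a, b, c]⟩
  have hp2 : p ≠ 2 := fun h => h2 (by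
    haveI : Fact (Nat.Prime p) := ⟨hp⟩
    haveI : CharP F p := charP_of_card_eq_prime (by rw [hcard])
    have := CharP.cast_eq_zero F p
    rw [h] at this
    exact_mod_cast this)
  rcases range_cases hp hcard hQ with h | ⟨hdvd, h9, -, hS⟩
  · have h5 : 5 ≤ p := by
      have := hp.two_le
      by_contra hlt
      have : p = 4 := by omega
      rw [this] at hp; norm_num at hp
    exact Or.inr (Or.inl (S.big_of_range_top E hp hcard h5 h))
  set G := (proj S E 0).range with hG
  by_cases h3K : 3 ∣ Nat.card K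
  · -- the element permuting the axes lies in the kernel image
    left
    have hnorm : (K.subgroupOf G).Normal := ⟨fun k hk m =>
      Subgroup.mem_subgroupOf.2 (by
        simpa using S.kerImage_conj E (Subgroup.mem_subgroupOf.1 hk) m.2)⟩
    have hnK : n ∈ K := by
      have h3' : ¬ 3 ∣ (K.subgroupOf G).index := fun hd => h9 (by
        rw [← Subgroup.card_mul_index (K.subgroupOf G),
          Nat.card_congr (Subgroup.subgroupOfEquivOfLe hKG).toEquiv]
        exact Nat.mul_dvd_mul h3K hd)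
      have hn3 : n ^ 3 = 1 := by
        apply Subtype.ext
        rw [Matrix.SpecialLinearGroup.coe_pow, Matrix.SpecialLinearGroup.coe_one, hn', pow_succ,
          sq, hq.mul, hq.mul, ← b0]
        congr 1
        funext i
        fin_cases i <;> simp [qmul] <;> field_simp <;>
          first
          | ring1 | linear_combination hε | linear_combination -hε | linear_combination 2 * hε
          | linear_combination -2 * hε | linear_combination 3 * hε | linear_combination -3 * hε
          | linear_combination 4 * hε | linear_combination -4 * hε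
          | linear_combination 6 * hε | linear_combination -6 * hε
          | linear_combination ε * hε | linear_combination -ε * hε
          | linear_combination 2 * ε * hε | linear_combination -2 * ε * hε
      by_contra hnK
      haveI := hnorm
      have hne : (QuotientGroup.mk (⟨n, hn⟩ : G) : G ⧸ K.subgroupOf G) ≠ 1 := fun e => hnK
        (Subgroup.mem_subgroupOf.1 ((QuotientGroup.eq_one_iff _).1 e))
      exact h3' (nat_card_dvd_three (by
        rw [← QuotientGroup.mk_pow, show (⟨n, hn⟩ : G) ^ 3 = 1 from Subtype.ext (by simpa using hn3),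
          QuotientGroup.mk_one]) hne)
    obtain ⟨m, hm, hmn⟩ := hnK
    obtain ⟨g0, hg0, hg0'⟩ := S.gam 0
    set u := (m : GL₄) * g0 * (m : GL₄)⁻¹ with hu
    have hum : u ∈ M := mul_mem (mul_mem m.2.1 hg0) (inv_mem m.2.1)
    have hu2 : (u : M₄) * u = 1 := by
      rw [← Units.val_mul, show u * u = (m : GL₄) * (g0 * g0) * (m : GL₄)⁻¹ by rw [hu]; group]
      simp [hg0', S.anti.sq]
    have hanti : (u : M₄) * Γ 4 = -(Γ 4 * (u : M₄)) := by
      have hm4 : (((m : GL₄)⁻¹ : GL₄) : M₄) * Γ 4 = Γ 4 * (((m : GL₄)⁻¹ : GL₄) : M₄) :=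
        (inv_mem m.2 : (m : GL₄)⁻¹ ∈ cent Γ M).2
      rw [hu, Units.val_mul, Units.val_mul, hg0', mul_assoc, hm4, ← mul_assoc, mul_assoc (↑(m : GL₄) : M₄),
        S.anti.anti 0 4 (by decide), Matrix.mul_neg, ← mul_assoc, m.2.2, Matrix.neg_mul]
      simp [mul_assoc]
    have hu1 : ∀ σ : F, (u : M₄) ≠ σ • 1 := by
      intro σ hσ
      have e := hu2
      rw [hσ, Matrix.smul_mul, one_mul, smul_smul] at e
      have hσ0 : σ ≠ 0 := fun h0 => by
        rw [h0, zero_mul, zero_smul] at e; exact zero_ne_one e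
      rw [hσ, Matrix.smul_mul, one_mul, Matrix.mul_smul, mul_one] at hanti
      have h4 : ((2 : F) * σ) • Γ 4 = 0 := by linear_combination (norm := module) hanti
      have := (smul_eq_zero.1 h4).resolve_left (mul_ne_zero h2 hσ0)
      simpa [this] using S.anti.sq 4
    obtain ⟨a, hXa, hua, -⟩ := S.X_of_sq hum hu2 (by simpa using hu1 1) (by simpa using hu1 (-1))
    have ha4 : a 4 = 0 := by
      have := dot_eq_zero_of_anti S.anti h2 (a := a) (b := Pi.single 4 1)
        (by rw [V_single, one_smul, ← hua]; exact hanti)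
      simpa [dot_single] using this
    refine ⟨a, hXa, 4, ha4, ?_⟩
    have e : quat (bI Γ P 0) (bJ Γ P 0) (qv ε a) = quat (bI Γ P 0) (bJ Γ P 0)
        (qconj ![-(2 : F)⁻¹, -(ε / 2), -(ε / 2), -(2 : F)⁻¹]) := by
      have e1 := S.blk_gam_V E hε hD 0 ha4
      simp only [bsgn, Matrix.cons_val_zero, mul_one] at e1
      have hsw : blk P 0 (Γ 0 * ((m : GL₄) : M₄) * Γ 0) = 1 :=
        S.blk_swap E m.2.2 (k := 1) (by decide) (congrArg (fun z : SL₂ => (z : M₂)) (MonoidHom.mem_ker.1 hm))
      have hc : Γ 0 * ((m : GL₄) : M₄) * Γ 0 * Γ 4 = Γ 4 * (Γ 0 * ((m : GL₄) : M₄) * Γ 0) := by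
        rw [mul_assoc, S.anti.anti 0 4 (by decide), Matrix.mul_neg, ← mul_assoc,
          mul_assoc (Γ 0) _ (Γ 4), m.2.2, ← mul_assoc, S.anti.anti 0 4 (by decide), Matrix.neg_mul,
          Matrix.neg_mul, neg_neg]
        simp only [mul_assoc]
      rw [← e1, ← hua, hu, Units.val_mul, Units.val_mul, hg0', ← mul_assoc, ← mul_assoc,
        E.blk_mul S.two 0 hc, hsw, one_mul]
      show blk P 0 ((((m⁻¹ : cent Γ M) : GL₄)) : M₄) = _
      rw [← proj_coe S E 0 (m⁻¹), map_inv, hmn,
        Matrix.SpecialLinearGroup.coe_inv, hn', hq.adjugate_quat]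
    have ev := hq.injective e
    have a0 := congrFun ev 0; have a1 := congrFun ev 1
    have a2 := congrFun ev 2; have a3 := congrFun ev 3
    simp [qv, qconj] at a0 a1 a2 a3
    have hε' : a 3 = ε * (2 : F)⁻¹ := by
      linear_combination ε * a3 - a 3 * hε
    intro k hk
    fin_cases k
    · show 4 * a 0 * a 0 = 1; rw [a0]; field_simp; norm_num
    · show 4 * a 1 * a 1 = 1; rw [a1]; field_simp; linear_combination 4 * hε
    · show 4 * a 2 * a 2 = 1; rw [a2]; field_simp; linear_combination 4 * hε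
    · show 4 * a 3 * a 3 = 1; rw [hε']; field_simp; linear_combination 4 * hε
    · exact absurd rfl hk
  -- the kernel image is the quaternion group
  right; right
  obtain ⟨s, hs4, hs⟩ := hS.four
  have hnc : ∀ y : G, (y : SL₂) * y = 1 → y ∈ zG G := fun y hy => by
    have e := congrArg Subtype.val hy
    simp only [Matrix.SpecialLinearGroup.coe_mul, Matrix.SpecialLinearGroup.coe_one, mul_self_eq] at e
    refine mem_zG.2 ((mem_center_iff_isScalarMat _).2 ((isScalarMat_iff _).2 ?_))
    have e' : tr (y : SL₂) • ((y : SL₂) : M₂) = (2 : F) • (1 : M₂) := by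
      linear_combination (norm := module) e
    have ht : tr (y : SL₂) ≠ 0 := fun h0 => by
      rw [h0, zero_smul] at e'
      exact h2 ((smul_eq_zero.1 e'.symm).resolve_right one_ne_zero)
    exact ⟨(tr (y : SL₂))⁻¹ * 2, by rw [mul_smul, ← e', smul_smul, inv_mul_cancel₀ ht, one_smul]⟩
  have hno3 : ∀ y : G, (y : SL₂) ∈ K → (y : G ⧸ zG G) ^ 3 = 1 → (y : G ⧸ zG G) = 1 := by
    intro y hyK hy
    rw [← QuotientGroup.mk_pow, QuotientGroup.eq_one_iff, mem_zG, SL2.mem_center_iff] at hy
    simp only [Subgroup.coe_pow] at hy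
    have hy6 : ((y : SL₂) * y) ^ 3 = 1 := by
      rw [← sq, ← pow_mul, mul_comm, pow_mul]
      rcases hy with r | r <;> rw [r] <;> simp
    by_contra hne
    refine h3K (nat_card_dvd_three (x := (⟨(y : SL₂) * y, mul_mem hyK hyK⟩ : K))
      (Subtype.ext (by simpa using hy6)) fun e => hne ?_)
    exact (QuotientGroup.eq_one_iff y).2 (hnc y (by simpa using congrArg Subtype.val e))
  have hmem : ∀ y : G, (y : SL₂) ∈ K → (y : G ⧸ zG G) ∈ s := by
    intro y hy
    refine hs _ (hno3 y hy) fun z hz => ?_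
    obtain ⟨z, rfl⟩ := QuotientGroup.mk_surjective z
    rw [← QuotientGroup.mk_inv, ← QuotientGroup.mk_inv, ← QuotientGroup.mk_mul, ← QuotientGroup.mk_mul,
      ← QuotientGroup.mk_mul] at hz ⊢
    refine hno3 _ ?_ hz
    simpa using mul_mem (S.kerImage_conj E hy z.2) (inv_mem hy)
  let gI : G := ⟨I, hKG hI⟩
  let gJ : G := ⟨J, hKG hJ⟩
  have hsc : ∀ (y : G) (v : Fin 4 → F), ((y : SL₂) : M₂) = quat (bI Γ P 0) (bJ Γ P 0) v →
      (y : G ⧸ zG G) = 1 → v 1 = 0 ∧ v 2 = 0 ∧ v 3 = 0 := by
    intro y v hv h1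
    obtain ⟨c, hc⟩ := (isScalarMat_iff _).1 ((mem_center_iff_isScalarMat _).1
      (mem_zG.1 ((QuotientGroup.eq_one_iff y).1 h1)))
    have e : quat (bI Γ P 0) (bJ Γ P 0) v = quat (bI Γ P 0) (bJ Γ P 0) ![c, 0, 0, 0] := by
      rw [← hv, hc]; simp [quat]
    have := hq.injective e
    exact ⟨by simpa using congrFun this 1, by simpa using congrFun this 2, by simpa using congrFun this 3⟩
  let L : Fin 4 → G := ![1, gI, gJ, gI * gJ]
  have hL : ∀ i, ((L i : SL₂) : M₂) = quat (bI Γ P 0) (bJ Γ P 0) (Pi.single i 1) := by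
    intro i
    fin_cases i <;> simp [L, gI, gJ, hI', hJ', quat, Matrix.SpecialLinearGroup.coe_mul]
  have hinj : Function.Injective (fun i => (L i : G ⧸ zG G)) := by
    intro i j hij
    have hij' : (L i : G ⧸ zG G) * ((L j : G ⧸ zG G))⁻¹ = 1 := by
      rw [show (L i : G ⧸ zG G) = (L j : G ⧸ zG G) from hij, mul_inv_cancel]
    rw [← QuotientGroup.mk_inv, ← QuotientGroup.mk_mul] at hij'
    obtain ⟨e1, e2, e3⟩ := hsc _ (qmul (Pi.single i 1) (qconj (Pi.single j 1))) (by
      rw [Subgroup.coe_mul, Subgroup.coe_inv, Matrix.SpecialLinearGroup.coe_mul,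
        Matrix.SpecialLinearGroup.coe_inv, hL, hL, hq.adjugate_quat, hq.mul]) hij'
    fin_cases i <;> fin_cases j <;> first | rfl | (exfalso; simp [qmul, qconj] at e1 e2 e3)
  have hseq : Finset.univ.image (fun i => (L i : G ⧸ zG G)) = s := by
    refine Finset.eq_of_subset_of_card_le (fun z hz => ?_) ?_
    · obtain ⟨i, -, rfl⟩ := Finset.mem_image.1 hz
      refine hmem _ ?_
      fin_cases i
      · exact one_mem K
      · exact hI
      · exact hJ
      · exact mul_mem hI hJ
    · rw [Finset.card_image_of_injective _ hinj]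
      simpa using hs4
  intro y hy hy0
  obtain ⟨i, -, hi⟩ := Finset.mem_image.1 (hseq ▸ hmem ⟨y, hKG hy⟩ hy)
  have hz : (L i)⁻¹ * (⟨y, hKG hy⟩ : G) ∈ zG G := QuotientGroup.eq.1 hi
  obtain ⟨σ, hσ, e⟩ : ∃ σ : F, (σ = 1 ∨ σ = -1) ∧
      (y : M₂) = σ • quat (bI Γ P 0) (bJ Γ P 0) (Pi.single i 1) := by
    rcases (SL2.mem_center_iff _).1 (mem_zG.1 hz) with r | r
    · refine ⟨1, Or.inl rfl, ?_⟩
      rw [Subgroup.coe_mul, Subgroup.coe_inv, inv_mul_eq_one] at r
      rw [one_smul, ← hL, r]
    · refine ⟨-1, Or.inr rfl, ?_⟩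
      rw [Subgroup.coe_mul, Subgroup.coe_inv, inv_mul_eq_iff_eq_mul] at r
      rw [neg_one_smul, ← hL, show y = (L i : SL₂) * -1 from r]
      simp
  rw [e, Matrix.trace_smul, hq.trace_quat] at hy0
  refine ⟨σ, hσ, Pi.single i 1, ?_, e⟩
  fin_cases i
  · exfalso
    rcases hσ with rfl | rfl <;> simp [h2] at hy0
  · exact Or.inl (by funext k; fin_cases k <;> simp)
  · exact Or.inr (Or.inl (by funext k; fin_cases k <;> simp))
  · exact Or.inr (Or.inr (by funext k; fin_cases k <;> simp))

/-- In characteristic three a half root gives all isometries. -/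
theorem big_of_half_three (hp : Fintype.card F = 3)
    (hhalf : ∀ x : Fin 5 → F, x 4 = 0 → (∀ k, k ≠ 4 → 4 * x k * x k = 1) → X Γ M x) :
    Cfsg.spGL 2 F ≤ M := by
  haveI : Fact (Nat.Prime 3) := ⟨Nat.prime_three⟩
  haveI : CharP F 3 := charP_of_card_eq_prime (by rw [hp])
  have three : (3 : F) = 0 := by simpa using CharP.cast_eq_zero F 3
  obtain ⟨ε, hε, hD⟩ := S.prod_four
  obtain ⟨hQ, I, J, n, hI, hJ, -, hI', hJ', hn'⟩ := S.qsub E hε hD
  obtain ⟨gn, hgn⟩ := S.exists_omega E hε hD
  have h2 := S.two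
  have half : (2 : F)⁻¹ = -1 := by
    refine inv_eq_of_mul_eq_one_right ?_
    linear_combination -three
  have hX := hhalf ![-(2 : F)⁻¹, ε / 2, ε / 2, ε / 2, 0] rfl fun k hk => by
    fin_cases k <;> simp at hk ⊢ <;> field_simp <;>
      first | ring1 | linear_combination hε | linear_combination 4 * hε | linear_combination -hε
  obtain ⟨g, hg⟩ := S.pair_mem_cent E (i := 0) (by decide) hX rfl
  have hgk : ∀ k, (proj S E k g : M₂) = quat (bI Γ P k) (bJ Γ P k)
      (qv (ε * bsgn k) ![-(2 : F)⁻¹, ε / 2, ε / 2, ε / 2, 0]) := fun k => by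
    rw [proj_coe, hg]; exact S.blk_gam_V E hε hD k rfl
  set m := g * gn⁻¹ with hm
  have hm1 : proj S E 1 m = 1 := by
    rw [hm, map_mul, map_inv, mul_inv_eq_one]
    apply Subtype.ext
    rw [hgk 1, hgn 1]
    congr 1
    funext i
    fin_cases i <;> simp [qv, bsgn] <;> field_simp <;>
      first | ring1 | linear_combination hε | linear_combination -hε
  set u := proj S E 0 m with hudef
  have huK : u ∈ kerImage S E := ⟨m, hm1, rfl⟩
  have hq := S.qbasis E 0
  have hu : (u : M₂) = quat (bI Γ P 0) (bJ Γ P 0)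
      (qmul (qv ε ![-(2 : F)⁻¹, ε / 2, ε / 2, ε / 2, 0])
        (qconj ![-(2 : F)⁻¹, -(ε / 2), -(ε / 2), -(2 : F)⁻¹])) := by
    rw [hudef, hm, map_mul, map_inv, Matrix.SpecialLinearGroup.coe_mul,
      Matrix.SpecialLinearGroup.coe_inv, hgk 0, hgn 0, hq.adjugate_quat, hq.mul]
    simp [bsgn]
  have ht : tr u = 2 := by
    rw [tr_eq_trace, hu, hq.trace_quat]
    simp [qmul, qv, qconj, half, div_eq_mul_inv]
    first
      | linear_combination (-2 * ε * ε) * three | linear_combination (2 * ε * ε) * three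
  have hune : u ≠ 1 := fun h => by
    have e : quat (bI Γ P 0) (bJ Γ P 0) (qmul (qv ε ![-(2 : F)⁻¹, ε / 2, ε / 2, ε / 2, 0])
        (qconj ![-(2 : F)⁻¹, -(ε / 2), -(ε / 2), -(2 : F)⁻¹])) =
        quat (bI Γ P 0) (bJ Γ P 0) ![1, 0, 0, 0] := by
      rw [← hu, h]; simp [quat]
    have e1 := congrFun (hq.injective e) 1
    simp [qmul, qv, qconj, half, div_eq_mul_inv] at e1
    have hε0 : ε ≠ 0 := fun h0 => by simp [h0] at hε
    refine hε0 ?_
    linear_combination e1 + ε * hε + ε * three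
  have hu3 : u ^ 3 = 1 := by
    apply Subtype.ext
    rw [Matrix.SpecialLinearGroup.coe_pow, Matrix.SpecialLinearGroup.coe_one, pow_succ, sq,
      mul_self_eq, ht, sub_mul, Matrix.smul_mul, mul_self_eq, ht, one_mul]
    linear_combination (norm := module) three • ((u : M₂) - (1 : M₂))
  have h3 : 3 ∣ Nat.card (kerImage S E) :=
    nat_card_dvd_three (x := (⟨u, huK⟩ : kerImage S E)) (Subtype.ext (by simpa using hu3))
      fun h => hune (congrArg Subtype.val h)
  -- twelve divides the order of the kernel image, and index two is impossible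
  have h4 : 4 ∣ Nat.card (kerImage S E) := by
    have hI2 : (I : M₂) * I = -1 := by rw [hI', hq.II]
    have hord : orderOf (⟨I, hI⟩ : kerImage S E) = 2 ^ (1 + 1) := by
      refine orderOf_eq_prime_pow (fun h => ?_) ?_
      · have e := congrArg (fun z : kerImage S E => ((z : SL₂) : M₂) 0 0) h
        rw [pow_one, sq] at e
        simp [hI2] at e
        exact h2 (by linear_combination -e)
      · apply Subtype.ext
        apply Subtype.ext
        rw [show 2 ^ (1 + 1) = 2 * 2 from rfl, pow_mul, sq, sq]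
        simp [hI2]
    have := orderOf_dvd_natCard (⟨I, hI⟩ : kerImage S E)
    rw [hord] at this
    simpa using this
  obtain ⟨e, he⟩ := Nat.Coprime.mul_dvd_of_dvd_of_dvd (by norm_num : Nat.Coprime 4 3) h4 h3
  have hm := Subgroup.card_mul_index (kerImage S E)
  rw [SL2.card_SL, Nat.card_eq_fintype_card (α := F), hp, he] at hm
  norm_num at hm
  refine S.big_of_unipotent E Nat.prime_three hp ?_
  have hdvd : (kerImage S E).index ∣ 2 :=
    ⟨e, by linarith [show 12 * e * (kerImage S E).index = 12 * ((kerImage S E).index * e) by ring]⟩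
  rcases (Nat.dvd_prime Nat.prime_two).1 hdvd with r | r
  · exact Subgroup.index_eq_one.1 r
  · have dbl : ∀ z : F, z = z / 2 + z / 2 := fun z => by field_simp; ring
    refine eq_top_of_upS_lowS (fun z => ?_) (fun z => ?_)
    · rw [dbl z, CfsgLib.ClassicalLinear.upS_add]
      exact Subgroup.mul_self_mem_of_index_two r _
    · rw [dbl z, lowS_add]
      exact Subgroup.mul_self_mem_of_index_two r _

end Frame5

end CfsgLib.Geometric.SympFour
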