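import Cfsg.Prelude.Def_GeometricClasses
import Cfsg.Agent.Lib.PauliFour.SympFrame
import Cfsg.Agent.Lib.Geometric.SympFour.Rigid

/-!
The normaliser in `Sp_4(p)` of a 2-group of symplectic type is maximal.
-/

set_option autoImplicit false
set_option linter.unusedSectionVars false

namespace CfsgLib.Geometric.SympFour

open scoped Matrix
open CfsgLib.PauliFour

variable {F : Type*} [Field F] [Fintype F]

local notation "M₄" => Matrix (Fin 2 ⊕ Fin 2) (Fin 2 ⊕ Fin 2) F
local notation "GL₄" => GL (Fin 2 ⊕ Fin 2) F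

theorem normaliser_maximal (h2 : (2 : F) ≠ 0) {p : ℕ} (hp : p.Prime) (hcard : Fintype.card F = p)
    {R : Subgroup (GL (Fin 2 ⊕ Fin 2) F)} (hs : Cfsg.Geo.IsSymplecticTypeGroup 2 R)
    (habs : Cfsg.Geo.ActsAbsolutelyIrreducibly (Cfsg.Geo.matrixSet R)) (hRf : R ≤ Cfsg.spGL 2 F) :
    Cfsg.Geo.IsMaximalIn (Cfsg.spGL 2 F) (Cfsg.Geo.subgroupNormalizer R ⊓ Cfsg.spGL 2 F) := by
  have hR := isPauli_of_sympType (F := F) (R := R) (by simp) hs habs
  obtain ⟨q, hΓ, hadj, hgen⟩ := exists_frame hR hRf h2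
  set Γ : Fin 5 → M₄ := fun i => rep R (q i) with hΓdef
  set N := Cfsg.Geo.subgroupNormalizer R ⊓ Cfsg.spGL 2 F
  -- the elements exchanging two pairs
  have hperm : ∀ i j k l, i ≠ j → k ≠ l → ∃ g ∈ N,
      (g : M₄) = (2 : F)⁻¹ • ((Γ i - Γ j) * (Γ k - Γ l)) := by
    intro i j k l hij hkl
    set Y : M₄ := (2 : F)⁻¹ • ((Γ i - Γ j) * (Γ k - Γ l)) with hY
    have aY : adj Y = (2 : F)⁻¹ • ((Γ k - Γ l) * (Γ i - Γ j)) := by
      rw [hY, adj_smul, adj_mul, adj_sub, adj_sub, hadj, hadj, hadj, hadj]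
    have hYY : adj Y * Y = 1 := by
      rw [aY, hY, Matrix.smul_mul, Matrix.mul_smul, mul_assoc (Γ k - Γ l), ← mul_assoc (Γ i - Γ j),
        hΓ.sub_sq hij, Matrix.smul_mul, one_mul, Matrix.mul_smul, hΓ.sub_sq hkl, smul_smul, smul_smul,
        smul_smul]
      rw [show (2 : F)⁻¹ * (2 : F)⁻¹ * 2 * 2 = 1 by field_simp, one_smul]
    let y : GL₄ := ⟨Y, adj Y, mul_eq_one_comm.1 hYY, hYY⟩
    refine ⟨y, ⟨?_, mem_spGL_of_adj hYY⟩, rfl⟩
    refine mem_normalizer_of_lines hR _ hgen ?_ (by simp)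
    rintro _ ⟨m, rfl⟩
    refine ⟨(q ((Equiv.swap i j * Equiv.swap k l) m)).out, 1, ?_, Or.inl rfl⟩
    rw [one_smul]
    show Y * Γ m = Γ _ * Y
    rw [hY, Matrix.smul_mul, Matrix.mul_smul, hΓ.sub_sub_perm hij hkl]
  have hRN : R ≤ N := le_inf Subgroup.le_normalizer hRf
  have frame : ∀ M : Subgroup GL₄, N ≤ M → M ≤ Cfsg.spGL 2 F → Frame5 Γ M := fun M hNM hM =>
    { anti := hΓ
      adj_eq := hadj
      le := hM
      two := h2
      gam := fun i => ⟨((q i).out : GL₄), hNM (hRN (q i).out.2), rfl⟩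
      perm := fun i j k l hij hkl => by
        obtain ⟨g, hg, hg'⟩ := hperm i j k l hij hkl
        exact ⟨g, hNM hg, hg'⟩ }
  refine ⟨lt_of_le_of_ne inf_le_right fun he => ?_, fun M hNM hMK => ?_⟩
  · -- some reflection is no normalising element
    have S := frame (Cfsg.spGL 2 F) inf_le_right le_rfl
    obtain ⟨x, y, hxy⟩ : ∃ x y : F, x ^ 2 + y ^ 2 = -1 := by
      haveI : Fact p.Prime := ⟨hp⟩
      haveI : CharP F p := charP_of_card_eq_prime (by rw [hcard])
      obtain ⟨u, v, h⟩ := CharP.sq_add_sq F p (-1)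
      exact ⟨u, v, by simpa using h⟩
    set a : Fin 5 → F := ![1, 1, x, y, 0] with ha
    have ha1 : dot a a = 1 := by
      rw [dot_eq]; simp [a]; linear_combination hxy
    have hVV : V Γ a * V Γ a = 1 := by rw [V_sq hΓ h2, ha1, one_smul]
    let g : GL₄ := ⟨V Γ a, V Γ a, hVV, hVV⟩
    have hg : g ∈ N := by
      rw [he]
      exact mem_spGL_of_adj (g := g) (by show adj (V Γ a) * V Γ a = 1; rw [S.adj_V, hVV])
    have hXa : X Γ (Cfsg.spGL 2 F) a := ⟨g, hg.2, rfl⟩
    -- the image of the first frame vector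
    set b := refl a (Pi.single 0 1)
    have hmem : g * ((q 0).out : GL₄) * g⁻¹ ∈ R :=
      (Subgroup.mem_normalizer_iff.1 hg.1 _).1 (q 0).out.2
    have hVb : V Γ b = ((g * ((q 0).out : GL₄) * g⁻¹ : GL₄) : M₄) := by
      show V Γ (refl a (Pi.single 0 1)) = V Γ a * Γ 0 * V Γ a
      have e : V Γ a * Γ 0 = (2 * dot (Pi.single 0 1) a) • (1 : M₄) - Γ 0 * V Γ a :=
        eq_sub_of_add_eq' (by
          have := anticomm hΓ (Γ := Γ) (Pi.single 0 1) a
          rwa [V_single, one_smul] at this)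
      rw [e, Matrix.sub_mul, Matrix.smul_mul, one_mul, mul_assoc, hVV, mul_one, refl, V_sub, V_smul,
        V_single, one_smul]
    have hcom := hR.comm _ hmem _ (q 1).out.2
    rw [← hVb] at hcom
    have hb0 : b 0 = 1 := by
      simp [b, refl, dot_comm (Pi.single 0 (1 : F)), dot_single, a, Matrix.vecHead, Matrix.vecTail]
      norm_num
    have hb1 : b 1 = 2 := by
      simp [b, refl, dot_comm (Pi.single 0 (1 : F)), dot_single, a, Matrix.vecHead, Matrix.vecTail]
    have hΓ1 : (((q 1).out : GL₄) : M₄) = V Γ (Pi.single 1 1) := by rw [V_single, one_smul]; rfl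
    rw [hΓ1] at hcom
    rcases hcom with h | h
    · have := congrFun (eq_smul_of_comm hΓ h2 (by simp [dot_single]) h) 0
      rw [hb0, Pi.smul_apply, Pi.single_eq_of_ne (by decide), smul_zero] at this
      exact one_ne_zero this
    · have := dot_eq_zero_of_anti hΓ h2 h
      rw [dot_single, hb1, mul_one] at this
      exact h2 this
  · rcases (frame M hNM hMK).rigid hp hcard with h | h
    · exact Or.inr (le_antisymm hMK h)
    · refine Or.inl (le_antisymm (fun g hg => ⟨?_, hMK hg⟩) hNM)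
      refine mem_normalizer_of_lines hR _ hgen ?_ (by simp)
      rintro _ ⟨i, rfl⟩
      obtain ⟨j, σ, hσ, e⟩ := h g hg i
      exact ⟨(q j).out, σ, by rw [Matrix.smul_mul]; exact e, hσ⟩

end CfsgLib.Geometric.SympFour
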