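import Cfsg.Prelude.Def_GeometricClasses
import Cfsg.Agent.Lib.Geometric.SympStab
import Cfsg.Agent.Lib.Geometric.SympDecomp
import Cfsg.Agent.Lib.Geometric.SympSubfield
import Cfsg.Agent.Lib.Geometric.ExtField.SympMax
import Cfsg.Agent.Lib.Geometric.ExtField.SympUnitaryFour
import Cfsg.Agent.Lib.Geometric.SympPairFour

/-!
The geometric subgroups of `Sp_4(q)`, `q` odd, other than the normalisers of 2-groups of symplectic type,
are maximal.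
-/

set_option autoImplicit false
open Cfsg

namespace CfsgLib.Geometric.SympFour

theorem geometric_types {F : Type*} [Field F] [Fintype F] (hodd : Odd (Fintype.card F)) :
    (∀ W : Submodule F (Fin 2 ⊕ Fin 2 → F), W ≠ ⊥ → Cfsg.Geo.IsTotallySingularFor (Cfsg.sympForm 2 F) W → Cfsg.Geo.IsMaximalIn (Cfsg.spGL 2 F) (Cfsg.Geo.subspaceStabilizer W ⊓ Cfsg.spGL 2 F)) ∧
    (∀ D : Fin 2 → Submodule F (Fin 2 ⊕ Fin 2 → F), Cfsg.Geo.IsNondegenerateMDecomposition (Cfsg.sympForm 2 F) 2 D → Cfsg.Geo.IsMaximalIn (Cfsg.spGL 2 F) (Cfsg.Geo.decompositionStabilizer D ⊓ Cfsg.spGL 2 F)) ∧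
    (5 ≤ Fintype.card F → ∀ D : Fin 2 → Submodule F (Fin 2 ⊕ Fin 2 → F), Cfsg.Geo.IsMDecomposition 2 D → (∀ i, Cfsg.Geo.IsTotallySingularFor (Cfsg.sympForm 2 F) (D i)) → Cfsg.Geo.IsMaximalIn (Cfsg.spGL 2 F) (Cfsg.Geo.decompositionStabilizer D ⊓ Cfsg.spGL 2 F)) ∧
    (∀ K : Subalgebra F (Matrix (Fin 2 ⊕ Fin 2) (Fin 2 ⊕ Fin 2) F), Cfsg.Geo.IsFieldSubalgebra 2 K → Cfsg.Geo.IsSelfAdjointFor (Cfsg.sympForm 2 F) K → (∀ k ∈ K, ∀ v : (Fin 2 ⊕ Fin 2 → F), (Cfsg.sympForm 2 F) (Matrix.mulVec k v) v = 0) → Cfsg.Geo.IsMaximalIn (Cfsg.spGL 2 F) (Cfsg.Geo.subalgebraNormalizer K ⊓ Cfsg.spGL 2 F)) ∧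
    (5 ≤ Fintype.card F → ∀ K : Subalgebra F (Matrix (Fin 2 ⊕ Fin 2) (Fin 2 ⊕ Fin 2) F), Cfsg.Geo.IsFieldSubalgebra 2 K → Cfsg.Geo.IsAdjointClosedFor (Cfsg.sympForm 2 F) K → ¬ Cfsg.Geo.IsSelfAdjointFor (Cfsg.sympForm 2 F) K → Cfsg.Geo.IsMaximalIn (Cfsg.spGL 2 F) (Cfsg.Geo.subalgebraNormalizer K ⊓ Cfsg.spGL 2 F)) ∧
    (∀ (F₀ : Subfield F) (r : ℕ) (P : Matrix.GeneralLinearGroup (Fin 2 ⊕ Fin 2) F) (ζ : F), r.Prime → Fintype.card F = Nat.card F₀ ^ r → ζ ≠ 0 → Cfsg.Geo.IsFormRationalStructure (Cfsg.sympForm 2 F) F₀ ζ P → Cfsg.Geo.IsMaximalIn (Cfsg.spGL 2 F) (Cfsg.Geo.subfieldSubgroup F₀ P ⊓ Cfsg.spGL 2 F)) := by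
  have hf := CfsgLib.Geometric.isSymplecticForm_sympForm 2 F
  have hdim : 4 ≤ Fintype.card (Fin 2 ⊕ Fin 2) := by simp
  have h2 : (2 : F) ≠ 0 := CfsgLib.ClassicalForms.two_ne_zero_of_odd
    (by rwa [Nat.card_eq_fintype_card])
  refine ⟨fun W hW hts => ?_, fun D hD => ?_, fun h5 D hD hts => ?_, fun K hK hsa halt => ?_,
    fun h5 K hK hac hnsa => ?_, fun F₀ r P ζ hr hcard hζ hP => ?_⟩
  · exact CfsgLib.Geometric.Symp.stab_isMaximalIn_of_totallySingular hf hW hts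
  · refine CfsgLib.Geometric.Symp.decompStab_isMaximalIn hf hD ?_
    rintro ⟨-, h⟩
    rw [h] at hodd
    exact absurd hodd (by decide)
  · exact CfsgLib.Geometric.Symp.pair_isMaximalIn_four hf h2 (by omega) hD hts
  · letI := CfsgLib.Geometric.ExtF.fieldOfSubalg hK Nat.prime_two.ne_zero
    have : Finite K := Finite.of_injective
      (fun x : K => (x : Matrix (Fin 2 ⊕ Fin 2) (Fin 2 ⊕ Fin 2) F)) Subtype.val_injective
    exact CfsgLib.Geometric.ExtF.symp_maximal' hf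
      (show (Module.finrank F K).Prime by rw [hK.finrank_eq]; exact Nat.prime_two)
      (Or.inr ⟨by simp, Or.inr ⟨-1, neg_ne_zero.2 one_ne_zero, fun h => h2 (by linear_combination -h)⟩⟩)
      K.val K (fun k => ⟨fun hk => ⟨⟨k, hk⟩, rfl⟩, fun ⟨a, ha⟩ => ha ▸ a.2⟩) hsa halt
  · exact CfsgLib.Geometric.ExtF.symp_unitary_maximal_four hf (by simp) hodd h5 K hK hac hnsa
  · exact CfsgLib.Geometric.sympSubfield_isMaximalIn' hdim hf hζ hP hr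
      (by rwa [Nat.card_eq_fintype_card])

end CfsgLib.Geometric.SympFour
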