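import Cfsg.Agent.Lib.PauliFour.SympConj
import Cfsg.Agent.Lib.PauliFour.Elements

/-!
Five anticommuting self-adjoint involutions of `Sp_4` as a frame of the five-dimensional orthogonal
space of self-adjoint traceless matrices, and the set of vectors whose matrices lie in a group
normalised by the frame.
-/

set_option autoImplicit false
set_option linter.unusedSectionVars false

namespace CfsgLib.Geometric.SympFour

open scoped Matrix
open CfsgLib.PauliFour

variable {F : Type*} [Field F]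

local notation "M₄" => Matrix (Fin 2 ⊕ Fin 2) (Fin 2 ⊕ Fin 2) F
local notation "GL₄" => GL (Fin 2 ⊕ Fin 2) F

theorem adj_add (A B : M₄) : adj (A + B) = adj A + adj B := by
  simp only [adj, Matrix.transpose_add, Matrix.mul_add, Matrix.add_mul, neg_add]

theorem adj_zero : adj (0 : M₄) = 0 := by simp [adj]

theorem adj_sum {α : Type*} (s : Finset α) (A : α → M₄) :
    adj (∑ i ∈ s, A i) = ∑ i ∈ s, adj (A i) := by
  classical
  induction s using Finset.induction with
  | empty => simp [adj_zero]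
  | insert i s his ih => rw [Finset.sum_insert his, Finset.sum_insert his, adj_add, ih]

theorem adj_adj (A : M₄) : adj (adj A) = A := by
  simp only [adj, Matrix.transpose_neg, Matrix.transpose_mul, Matrix.transpose_transpose,
    Matrix.J_transpose, Matrix.neg_mul, Matrix.mul_neg, neg_neg]
  rw [← mul_assoc, ← mul_assoc, Matrix.J_squared, mul_assoc, mul_assoc, Matrix.J_squared]
  simp

/-- Coordinates of a self-adjoint traceless matrix. -/
def mk5 (v : Fin 5 → F) : M₄ :=
  Matrix.fromBlocks !![v 0, v 1; v 2, -v 0] !![0, v 3; -v 3, 0] !![0, v 4; -v 4, 0]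
    !![v 0, v 2; v 1, -v 0]

theorem exists_mk5 (h2 : (2 : F) ≠ 0) {A : M₄} (ha : adj A = A) (ht : Matrix.trace A = 0) :
    ∃ v, mk5 v = A := by
  have e := fun i j => congrFun (congrFun ha i) j
  have e1 := e (.inr 0) (.inr 0)
  have e2 := e (.inr 1) (.inr 1)
  have e3 := e (.inr 0) (.inr 1)
  have e4 := e (.inr 1) (.inr 0)
  have e5 := e (.inl 0) (.inr 0)
  have e6 := e (.inl 1) (.inr 1)
  have e7 := e (.inl 1) (.inr 0)
  have e8 := e (.inr 0) (.inl 0)
  have e9 := e (.inr 1) (.inl 1)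
  have e10 := e (.inr 1) (.inl 0)
  simp [adj, Matrix.mul_apply, Matrix.J, Matrix.fromBlocks, Fintype.sum_sum_type, Fin.sum_univ_two,
    Matrix.one_apply] at e1 e2 e3 e4 e5 e6 e7 e8 e9 e10
  simp [Matrix.trace, Fintype.sum_sum_type, Fin.sum_univ_two] at ht
  have h0 : ∀ z : F, -z = z → z = 0 := fun z hz =>
    (mul_eq_zero.1 (show (2 : F) * z = 0 by linear_combination -hz)).resolve_left h2
  have hd : A (.inl 1) (.inl 1) = -A (.inl 0) (.inl 0) := by
    have h : (2 : F) * (A (.inl 1) (.inl 1) + A (.inl 0) (.inl 0)) = 0 := by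
      linear_combination ht + e1 + e2
    linear_combination (mul_eq_zero.1 h).resolve_left h2
  refine ⟨![A (.inl 0) (.inl 0), A (.inl 0) (.inl 1), A (.inl 1) (.inl 0), A (.inl 0) (.inr 1),
    A (.inr 0) (.inl 1)], ?_⟩
  ext i j
  rcases i with i | i <;> rcases j with j | j <;> fin_cases i <;> fin_cases j <;>
    simp [mk5, e1, e2, e3, e4, hd, h0 _ e5, h0 _ e6, e7, h0 _ e8, h0 _ e9, e10]
  all_goals first
    | linear_combination e1 | linear_combination -e1 | linear_combination e2
    | linear_combination -e2 | linear_combination e2 + hd | linear_combination -e2 - hd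
    | linear_combination e3 | linear_combination -e3 | linear_combination e4
    | linear_combination -e4 | linear_combination e7 | linear_combination -e7
    | linear_combination e10 | linear_combination -e10
    | linear_combination e1 + e2 - hd | linear_combination -e1 - e2 + hd

/-- The matrix of a vector in a frame. -/
def V (Γ : Fin 5 → M₄) (a : Fin 5 → F) : M₄ := ∑ i, a i • Γ i

/-- The scalar product. -/
def dot (a b : Fin 5 → F) : F := ∑ i, a i * b i

theorem dot_eq (a b : Fin 5 → F) :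
    dot a b = a 0 * b 0 + a 1 * b 1 + a 2 * b 2 + a 3 * b 3 + a 4 * b 4 := by
  simp [dot, Fin.sum_univ_five]

/-- The reflection in a unit vector, negated. -/
def refl (b a : Fin 5 → F) : Fin 5 → F := (2 * dot a b) • b - a

/-- The data: five anticommuting self-adjoint involutions in a group of isometries containing the
elements permuting them. -/
structure Frame5 (Γ : Fin 5 → M₄) (M : Subgroup GL₄) : Prop where
  anti : Anti Γ
  adj_eq : ∀ i, adj (Γ i) = Γ i
  le : M ≤ Cfsg.spGL 2 F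
  two : (2 : F) ≠ 0
  gam : ∀ i, ∃ g ∈ M, (g : M₄) = Γ i
  perm : ∀ i j k l, i ≠ j → k ≠ l → ∃ g ∈ M, (g : M₄) = (2 : F)⁻¹ • ((Γ i - Γ j) * (Γ k - Γ l))

/-- A vector whose matrix lies in the group. -/
def X (Γ : Fin 5 → M₄) (M : Subgroup GL₄) (a : Fin 5 → F) : Prop := ∃ g ∈ M, (g : M₄) = V Γ a

variable {Γ : Fin 5 → Matrix (Fin 2 ⊕ Fin 2) (Fin 2 ⊕ Fin 2) F} {M : Subgroup (GL (Fin 2 ⊕ Fin 2) F)}

theorem V_add (a b : Fin 5 → F) : V Γ (a + b) = V Γ a + V Γ b := by
  simp [V, add_smul, Finset.sum_add_distrib]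

theorem V_sub (a b : Fin 5 → F) : V Γ (a - b) = V Γ a - V Γ b := by
  simp [V, sub_smul, Finset.sum_sub_distrib]

theorem V_smul (c : F) (a : Fin 5 → F) : V Γ (c • a) = c • V Γ a := by
  simp [V, smul_smul, Finset.smul_sum]

theorem V_neg (a : Fin 5 → F) : V Γ (-a) = -V Γ a := by simp [V, neg_smul, Finset.sum_neg_distrib]

theorem V_single (i : Fin 5) (c : F) : V Γ (Pi.single i c) = c • Γ i := by
  rw [V, Finset.sum_eq_single i (fun j _ hj => by simp [hj]) (by simp)]
  simp

/-- The anticommutator of two vectors. -/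
theorem anticomm (h : Anti Γ) (a b : Fin 5 → F) :
    V Γ a * V Γ b + V Γ b * V Γ a = (2 * dot a b) • (1 : M₄) := by
  have key : ∀ i j, (a i • Γ i) * (b j • Γ j) + (b j • Γ j) * (a i • Γ i) =
      if i = j then (2 * (a i * b j)) • (1 : M₄) else 0 := by
    intro i j
    rw [smul_mul_smul_comm, smul_mul_smul_comm, mul_comm (b j)]
    split_ifs with hij
    · subst hij
      rw [h.sq, ← add_smul, two_mul]
    · rw [h.anti i j hij, smul_neg, neg_add_cancel]
  calc V Γ a * V Γ b + V Γ b * V Γ a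
      = ∑ i, ∑ j, ((a i • Γ i) * (b j • Γ j) + (b j • Γ j) * (a i • Γ i)) := by
        simp only [V, Finset.sum_mul, Finset.mul_sum, Finset.sum_add_distrib]
        rw [Finset.sum_comm (f := fun x y => a y • Γ y * b x • Γ x)]
    _ = ∑ i, (2 * (a i * b i)) • (1 : M₄) := by
        refine Finset.sum_congr rfl fun i _ => ?_
        simp only [key, Finset.sum_ite_eq, Finset.mem_univ, if_true]
    _ = _ := by rw [← Finset.sum_smul, dot, Finset.mul_sum]

theorem V_sq (h : Anti Γ) (h2 : (2 : F) ≠ 0) (a : Fin 5 → F) :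
    V Γ a * V Γ a = dot a a • (1 : M₄) := by
  have e := anticomm h a a
  rw [← two_smul F, mul_smul] at e
  exact smul_right_injective _ h2 e

theorem smul_one_inj {c d : F} (h : c • (1 : M₄) = d • 1) : c = d := by
  simpa using congrFun (congrFun h (.inl 0)) (.inl 0)

theorem dot_single (a : Fin 5 → F) (i : Fin 5) (c : F) : dot a (Pi.single i c) = a i * c := by
  simp [dot, Pi.single_apply]

theorem dot_comm (a b : Fin 5 → F) : dot a b = dot b a := by simp [dot, mul_comm]

theorem V_injective (h : Anti Γ) (h2 : (2 : F) ≠ 0) : Function.Injective (V Γ) := by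
  intro a b hab
  funext i
  have e1 := anticomm h a (Pi.single i 1)
  have e2 := anticomm h b (Pi.single i 1)
  rw [hab, e2] at e1
  have := mul_left_cancel₀ h2 (smul_one_inj e1)
  simpa [dot_single] using this.symm

/-- Anticommuting vectors are orthogonal. -/
theorem dot_eq_zero_of_anti (h : Anti Γ) (h2 : (2 : F) ≠ 0) {a b : Fin 5 → F}
    (e : V Γ a * V Γ b = -(V Γ b * V Γ a)) : dot a b = 0 := by
  have e' := anticomm h a b
  rw [e, neg_add_cancel] at e'
  exact (mul_eq_zero.1 (smul_one_inj (F := F) (c := 2 * dot a b) (d := 0)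
    (by rw [← e', zero_smul]))).resolve_left h2

theorem anti_of_dot_eq_zero (h : Anti Γ) {a b : Fin 5 → F} (e : dot a b = 0) :
    V Γ a * V Γ b = -(V Γ b * V Γ a) := by
  have e' := anticomm h a b
  rw [e, mul_zero, zero_smul] at e'
  exact eq_neg_of_add_eq_zero_left e'

/-- Commuting vectors are proportional. -/
theorem eq_smul_of_comm (h : Anti Γ) (h2 : (2 : F) ≠ 0) {a b : Fin 5 → F} (hb : dot b b = 1)
    (e : V Γ a * V Γ b = V Γ b * V Γ a) : a = dot a b • b := by
  have e' := anticomm h a b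
  rw [← e, ← two_smul F, mul_smul] at e'
  have e1 := congrArg (· * V Γ b) (smul_right_injective _ h2 e')
  simp only [mul_assoc, V_sq h h2, hb, one_smul, mul_one, Matrix.smul_mul, one_mul] at e1
  exact V_injective h h2 (by rw [e1, V_smul])

namespace Frame5

variable (S : Frame5 Γ M)
include S

theorem adj_V (a : Fin 5 → F) : adj (V Γ a) = V Γ a := by
  simp only [V, adj_sum, adj_smul, S.adj_eq]

theorem trace_gam (i : Fin 5) : Matrix.trace (Γ i) = 0 := by
  obtain ⟨j, hj⟩ := exists_ne i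
  have e : Matrix.trace (Γ j * Γ i * Γ j) = Matrix.trace (Γ i) := by
    rw [Matrix.trace_mul_cycle, S.anti.sq, one_mul]
  rw [S.anti.anti j i hj, Matrix.neg_mul, mul_assoc, S.anti.sq, mul_one, Matrix.trace_neg] at e
  exact (mul_eq_zero.1 (show (2 : F) * Matrix.trace (Γ i) = 0 by linear_combination -e)).resolve_left
    S.two

theorem trace_V (a : Fin 5 → F) : Matrix.trace (V Γ a) = 0 := by
  simp [V, Matrix.trace_sum, Matrix.trace_smul, S.trace_gam]

theorem exists_V {A : M₄} (ha : adj A = A) (ht : Matrix.trace A = 0) : ∃ a, V Γ a = A := by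
  let φ : (Fin 5 → F) →ₗ[F] M₄ :=
    { toFun := mk5
      map_add' := fun u v => by
        ext i j
        rcases i with i | i <;> rcases j with j | j <;> fin_cases i <;> fin_cases j <;>
          simp [mk5] <;> ring
      map_smul' := fun c v => by
        ext i j
        rcases i with i | i <;> rcases j with j | j <;> fin_cases i <;> fin_cases j <;>
          simp [mk5] }
  let ψ : (Fin 5 → F) →ₗ[F] M₄ :=
    { toFun := V Γ, map_add' := V_add, map_smul' := fun c v => V_smul c v }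
  have hle : LinearMap.range ψ ≤ LinearMap.range φ := by
    rintro _ ⟨a, rfl⟩
    obtain ⟨v, hv⟩ := exists_mk5 S.two (S.adj_V a) (S.trace_V a)
    exact ⟨v, hv⟩
  have heq := Submodule.eq_of_le_of_finrank_le hle (by
    rw [LinearMap.finrank_range_of_inj (f := ψ) (V_injective S.anti S.two)]
    exact LinearMap.finrank_range_le φ)
  obtain ⟨v, hv⟩ := exists_mk5 S.two ha ht
  have hA : A ∈ LinearMap.range ψ := heq ▸ ⟨v, hv⟩
  exact hA

/-- A non-trivial involution of the group is the matrix of a vector. -/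
theorem X_of_sq [Finite F] {g : GL₄} (hg : g ∈ M) (hsq : (g : M₄) * g = 1) (h1 : (g : M₄) ≠ 1)
    (h1' : (g : M₄) ≠ -1) : ∃ a, X Γ M a ∧ (g : M₄) = V Γ a ∧ dot a a = 1 := by
  have hadj : adj (g : M₄) = g := by
    rw [adj_eq_inv_of_mem (S.le hg)]
    exact Units.inv_eq_of_mul_eq_one_right hsq
  obtain ⟨P, -, hP⟩ := exists_frame_one S.two (S.le hg) hsq h1 h1'
  have hdiag : Matrix.trace (g : M₄) = 0 := by
    have e : (g : M₄) = (P : M₄) * Matrix.diagonal (Sum.elim ![1, -1] ![1, -1]) * ((P⁻¹ : GL₄) : M₄) := by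
      rw [← hP, mul_assoc, Units.mul_inv, mul_one]
    rw [e, Matrix.trace_mul_cycle, Units.inv_mul, one_mul]
    simp [Matrix.trace_diagonal, Fintype.sum_sum_type, Fin.sum_univ_two]
  obtain ⟨a, ha⟩ := S.exists_V hadj hdiag
  refine ⟨a, ⟨g, hg, ha.symm⟩, ha.symm, smul_one_inj (F := F) ?_⟩
  rw [← V_sq S.anti S.two, ha, hsq, one_smul]

theorem X_norm {a : Fin 5 → F} (ha : X Γ M a) : dot a a = 1 := by
  obtain ⟨g, hg, hga⟩ := ha
  have h : adj (g : M₄) * g = 1 := by
    rw [adj_eq_inv_of_mem (S.le hg), Units.inv_mul]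
  rw [hga, S.adj_V, V_sq S.anti S.two] at h
  exact smul_one_inj (F := F) (by rw [h, one_smul])

theorem X_sq {a : Fin 5 → F} (ha : X Γ M a) : V Γ a * V Γ a = 1 := by
  rw [V_sq S.anti S.two, S.X_norm ha, one_smul]

theorem X_single (i : Fin 5) : X Γ M (Pi.single i 1) := by
  obtain ⟨g, hg, h⟩ := S.gam i
  exact ⟨g, hg, by rw [h, V_single, one_smul]⟩

theorem X_refl {a b : Fin 5 → F} (ha : X Γ M a) (hb : X Γ M b) : X Γ M (refl b a) := by
  have hb2 := S.X_sq hb
  obtain ⟨g, hg, hga⟩ := ha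
  obtain ⟨h, hh, hhb⟩ := hb
  refine ⟨h * g * h, mul_mem (mul_mem hh hg) hh, ?_⟩
  have e : V Γ b * V Γ a = (2 * dot a b) • (1 : M₄) - V Γ a * V Γ b :=
    eq_sub_of_add_eq' (anticomm S.anti a b)
  rw [Units.val_mul, Units.val_mul, hga, hhb, e, Matrix.sub_mul, Matrix.smul_mul, one_mul,
    mul_assoc, hb2, mul_one, refl, V_sub, V_smul]

theorem neg_one_mem : (-1 : GL₄) ∈ M := by
  obtain ⟨g, hg, hga⟩ := S.gam 0
  obtain ⟨h, hh, hhb⟩ := S.gam 1
  have : (g * h) * (g * h) = (-1 : GL₄) := Units.ext (by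
    simp only [Units.val_mul, Units.val_neg, Units.val_one, hga, hhb]
    have e := S.anti.anti 1 0 (by decide)
    calc Γ 0 * Γ 1 * (Γ 0 * Γ 1) = Γ 0 * (Γ 1 * Γ 0) * Γ 1 := by simp only [mul_assoc]
      _ = -(Γ 0 * Γ 0 * (Γ 1 * Γ 1)) := by rw [e]; simp [mul_assoc]
      _ = -1 := by rw [S.anti.sq, S.anti.sq, one_mul])
  rw [← this]
  exact mul_mem (mul_mem hg hh) (mul_mem hg hh)

theorem X_neg {a : Fin 5 → F} (ha : X Γ M a) : X Γ M (-a) := by
  obtain ⟨g, hg, hga⟩ := ha
  exact ⟨-1 * g, mul_mem S.neg_one_mem hg, by simp [V_neg, hga]⟩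

theorem X_flip {a : Fin 5 → F} (ha : X Γ M a) (j : Fin 5) :
    X Γ M (Function.update a j (-a j)) := by
  have h := S.X_neg (S.X_refl ha (S.X_single j))
  convert h using 1
  funext k
  by_cases hk : k = j
  · subst hk
    simp [refl, dot_single]
    ring
  · simp [refl, hk]

theorem X_swaps {a : Fin 5 → F} (ha : X Γ M a) {i j k l : Fin 5} (hij : i ≠ j) (hkl : k ≠ l) :
    X Γ M (a ∘ ⇑(Equiv.swap k l * Equiv.swap i j : Equiv.Perm (Fin 5))) := by
  obtain ⟨g, hg, hga⟩ := ha
  obtain ⟨n, hn, hn'⟩ := S.perm i j k l hij hkl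
  refine ⟨n * g * n⁻¹, mul_mem (mul_mem hn hg) (inv_mem hn), ?_⟩
  have e : (n : M₄) * V Γ a = V Γ (a ∘ ⇑(Equiv.swap k l * Equiv.swap i j : Equiv.Perm (Fin 5))) * n := by
    simp only [V, Finset.mul_sum, Finset.sum_mul]
    rw [← Equiv.sum_comp (Equiv.swap k l * Equiv.swap i j) (fun m => (n : M₄) * a m • Γ m)]
    refine Finset.sum_congr rfl fun m _ => ?_
    rw [Matrix.mul_smul, Matrix.smul_mul, Function.comp_apply, hn', Matrix.smul_mul,
      S.anti.sub_sub_perm hij hkl, Matrix.mul_smul]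
    congr 3
    simp [Equiv.Perm.mul_apply]
  rw [Units.val_mul, Units.val_mul, hga, e, mul_assoc, Units.mul_inv, mul_one]

theorem X_perm_aux (σ : Equiv.Perm (Fin 5)) : ∀ a, X Γ M a →
    (Equiv.Perm.sign σ = 1 → X Γ M (a ∘ σ)) ∧
      (Equiv.Perm.sign σ = -1 → ∀ i j, i ≠ j → X Γ M (a ∘ ⇑(Equiv.swap i j * σ : Equiv.Perm (Fin 5)))) := by
  refine Equiv.Perm.swap_induction_on (motive := fun σ => ∀ a, X Γ M a →
    (Equiv.Perm.sign σ = 1 → X Γ M (a ∘ σ)) ∧
      (Equiv.Perm.sign σ = -1 → ∀ i j, i ≠ j →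
        X Γ M (a ∘ ⇑(Equiv.swap i j * σ : Equiv.Perm (Fin 5))))) σ
    (fun a ha => ⟨fun _ => by simpa using ha, fun h => by simp at h⟩) ?_
  · intro σ x y hxy ih a ha
    refine ⟨fun h => ?_, fun h i j hij => ?_⟩
    · refine (ih a ha).2 ?_ x y hxy
      rw [map_mul, Equiv.Perm.sign_swap hxy] at h
      rcases Int.units_eq_one_or (Equiv.Perm.sign σ) with h' | h' <;> simp [h'] at h ⊢
    · have h1 := (ih _ (S.X_swaps ha hxy hij)).1 (by
        rw [map_mul, Equiv.Perm.sign_swap hxy] at h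
        rcases Int.units_eq_one_or (Equiv.Perm.sign σ) with h' | h' <;> simp [h'] at h ⊢)
      convert h1 using 1
      funext k
      simp [Equiv.Perm.mul_apply]

/-- The even permutations of the coordinates preserve the set. -/
theorem X_perm {a : Fin 5 → F} (ha : X Γ M a) (σ : Equiv.Perm (Fin 5))
    (hσ : Equiv.Perm.sign σ = 1) : X Γ M (a ∘ σ) :=
  (S.X_perm_aux σ a ha).1 hσ

end Frame5

end CfsgLib.Geometric.SympFour
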